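import Mathlib
import Cfsg.Agent.Helper1.Ctrl
import Cfsg.Agent.Helper1.NC2

set_option autoImplicit false

namespace Cfsg.Agent.Helper1

open scoped Pointwise

/-- in a finite nilpotent group `H`, `H = P C_H(P)` for a Sylow subgroup `P` -/
theorem sylow_sup_centralizer_eq_top {H : Type*} [Group H] [Finite H] [Group.IsNilpotent H]
    {p : ℕ} [Fact p.Prime] (P : Sylow p H) :
    (P : Subgroup H) ⊔ Subgroup.centralizer (P : Set H) = ⊤ := by
  apply eq_top_of_forall_sylow_le
  intro r hr
  by_cases hrp : r = p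
  · subst hrp
    exact ⟨P, le_sup_left⟩
  · obtain ⟨R⟩ := (inferInstance : Nonempty (Sylow r H))
    refine ⟨R, le_trans ?_ le_sup_right⟩
    intro y hy
    rw [Subgroup.mem_centralizer_iff]
    intro x hx
    have hdis : Disjoint (P : Subgroup H) (R : Subgroup H) :=
      IsPGroup.disjoint_of_ne p r (fun h => hrp h.symm) _ _ P.2 R.2
    exact (Subgroup.commute_of_normal_of_disjoint _ _ inferInstance inferInstance hdis x y
      hx hy).eq

/-- a normal subgroup consisting of the elements of order prime to `|H|`, of index at most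
`|H|`, is a complement to `H` -/
theorem complement_of_coprime_order_subgroup {G : Type*} [Group G] [Finite G]
    (H N : Subgroup G) (hNn : N.Normal)
    (hNmem : ∀ g, g ∈ N ↔ (orderOf g).Coprime (Nat.card H)) (hidx : N.index ≤ Nat.card H) :
    N.IsComplement' H := by
  have hcop : Nat.Coprime (Nat.card N) (Nat.card H) := by
    apply Nat.coprime_of_dvd
    intro r hr hrN hrH
    haveI : Fact r.Prime := ⟨hr⟩
    obtain ⟨a, ha⟩ := exists_prime_orderOf_dvd_card' (G := N) r hrN
    have h1 := (hNmem (a : G)).mp a.2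
    rw [Subgroup.orderOf_coe, ha] at h1
    have h2 : r ∣ Nat.gcd r (Nat.card H) := Nat.dvd_gcd dvd_rfl hrH
    rw [Nat.Coprime.gcd_eq_one h1, Nat.dvd_one] at h2
    exact hr.one_lt.ne' h2
  have hrel : N.relIndex H = Nat.card H := by
    rw [← Subgroup.inf_relIndex_right, (Subgroup.disjoint_of_coprime_natCard hcop).eq_bot,
      Subgroup.relIndex_bot_left]
  have hidx2 : N.index = Nat.card H := by
    apply le_antisymm hidx
    apply Nat.le_of_dvd (Nat.pos_of_ne_zero Subgroup.index_ne_zero_of_finite)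
    rw [← hrel]
    exact Subgroup.relIndex_dvd_index_of_normal _ _
  refine Subgroup.isComplement'_of_coprime ?_ hcop
  rw [← hidx2]
  exact Subgroup.card_mul_index _

/-- a nilpotent Hall subgroup controlling its own fusion has a normal complement -/
theorem exists_normal_complement_of_nilpotent_hall_control {G : Type*} [Group G] [Finite G]
    (H : Subgroup G) (hH : Group.IsNilpotent H) (hHall : Nat.Coprime (Nat.card H) H.index)
    (hctrl : ∀ x ∈ H, ∀ y ∈ H, (∃ g : G, g * x * g⁻¹ = y) → ∃ h ∈ H, h * x * h⁻¹ = y) :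
    ∃ N : Subgroup G, N.Normal ∧ N.IsComplement' H := by
  have hK : ∀ q : (Nat.card H).primeFactors, ∃ K : Subgroup G, K.Normal ∧
      (∀ g : G, g ∈ K ↔ (orderOf g).Coprime (q : ℕ)) ∧
      K.index = (q : ℕ) ^ (Nat.card H).factorization (q : ℕ) := by
    rintro ⟨q, hq⟩
    have hqp : q.Prime := Nat.prime_of_mem_primeFactors hq
    haveI : Fact q.Prime := ⟨hqp⟩
    have hqdvd : q ∣ Nat.card H := Nat.dvd_of_mem_primeFactors hq
    obtain ⟨S₀⟩ := (inferInstance : Nonempty (Sylow q H))
    have hS₁p : IsPGroup q ((S₀ : Subgroup H).map H.subtype) := S₀.2.map _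
    have hS₁i : ¬ q ∣ ((S₀ : Subgroup H).map H.subtype).index := by
      rw [Subgroup.index_map_subtype]
      intro hdvd
      rcases (Nat.Prime.dvd_mul hqp).mp hdvd with h | h
      · exact S₀.not_dvd_index h
      · exact (Nat.Prime.coprime_iff_not_dvd hqp).mp
          (Nat.Coprime.coprime_dvd_left hqdvd hHall) h
    have hc : ∀ x ∈ hS₁p.toSylow hS₁i, ∀ y ∈ hS₁p.toSylow hS₁i, (∃ g : G, g * x * g⁻¹ = y) →
        ∃ u ∈ hS₁p.toSylow hS₁i, u * x * u⁻¹ = y := by
      intro x hx y hy hg
      rw [IsPGroup.mem_toSylow] at hx hy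
      obtain ⟨x₀, hx₀, rfl⟩ := hx
      obtain ⟨y₀, hy₀, rfl⟩ := hy
      obtain ⟨h, hh, hhx⟩ := hctrl _ x₀.2 _ y₀.2 hg
      have htop := sylow_sup_centralizer_eq_top S₀
      have hmem : (⟨h, hh⟩ : H) ∈ (((S₀ : Subgroup H) ⊔ Subgroup.centralizer (S₀ : Set H) :
          Subgroup H) : Set H) := by rw [htop]; trivial
      rw [Subgroup.normal_mul] at hmem
      obtain ⟨u, hu, c, hc, huc⟩ := Set.mem_mul.mp hmem
      refine ⟨(u : G), ?_, ?_⟩
      · rw [IsPGroup.mem_toSylow]; exact ⟨u, hu, rfl⟩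
      · have hcx : x₀ * c = c * x₀ := Subgroup.mem_centralizer_iff.mp hc x₀ hx₀
        have huc' : (h : G) = (u : G) * (c : G) := by
          have := congrArg Subtype.val huc
          simpa using this.symm
        have hcx' : (c : G) * (x₀ : G) = (x₀ : G) * (c : G) := by
          have := congrArg Subtype.val hcx
          simpa using this.symm
        show (u : G) * (x₀ : G) * (u : G)⁻¹ = (y₀ : G)
        rw [← hhx, huc']
        calc (u : G) * (x₀ : G) * (u : G)⁻¹
            = (u : G) * ((x₀ : G) * (c : G)) * (c : G)⁻¹ * (u : G)⁻¹ := by group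
          _ = (u : G) * ((c : G) * (x₀ : G)) * (c : G)⁻¹ * (u : G)⁻¹ := by rw [hcx']
          _ = (u : G) * (c : G) * (x₀ : G) * ((u : G) * (c : G))⁻¹ := by group
    obtain ⟨K, hKn, hKc, hKo⟩ := exists_normal_complement_of_control (hS₁p.toSylow hS₁i) hc
    refine ⟨K, hKn, hKo, ?_⟩
    have h1 : K.index = Nat.card ((hS₁p.toSylow hS₁i : Sylow q G) : Subgroup G) :=
      hKc.symm.index_eq_card
    rw [h1, IsPGroup.toSylow_coe, Subgroup.card_map_of_injective (Subgroup.subtype_injective H)]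
    exact S₀.card_eq_multiplicity
  choose K hKn hKo hKi using hK
  have hNmem : ∀ g, g ∈ (⨅ q, K q) ↔ (orderOf g).Coprime (Nat.card H) := by
    intro g
    rw [Subgroup.mem_iInf]
    constructor
    · intro h
      apply Nat.coprime_of_dvd
      intro r hr hrg hrH
      have hmem : r ∈ (Nat.card H).primeFactors :=
        Nat.mem_primeFactors.mpr ⟨hr, hrH, Nat.card_pos.ne'⟩
      have h1 := (hKo ⟨r, hmem⟩ g).mp (h ⟨r, hmem⟩)
      have h2 : r ∣ Nat.gcd (orderOf g) r := Nat.dvd_gcd hrg dvd_rfl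
      rw [Nat.Coprime.gcd_eq_one h1, Nat.dvd_one] at h2
      exact hr.one_lt.ne' h2
    · intro h q
      rw [hKo]
      exact Nat.Coprime.coprime_dvd_right (Nat.dvd_of_mem_primeFactors q.2) h
  have hNn : (⨅ q, K q).Normal := Subgroup.normal_iInf_normal hKn
  have hidx : (⨅ q, K q).index ≤ Nat.card H := by
    calc (⨅ q, K q).index ≤ ∏ q, (K q).index := Subgroup.index_iInf_le _
      _ = ∏ q : (Nat.card H).primeFactors, (q : ℕ) ^ (Nat.card H).factorization (q : ℕ) :=
          Finset.prod_congr rfl (fun q _ => hKi q)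
      _ = ∏ q ∈ (Nat.card H).primeFactors, q ^ (Nat.card H).factorization q :=
          Finset.prod_coe_sort _ (fun q => q ^ (Nat.card H).factorization q)
      _ = Nat.card H := by
          rw [← Nat.support_factorization]
          exact Nat.prod_factorization_pow_eq_self Nat.card_pos.ne'
  exact ⟨_, hNn, complement_of_coprime_order_subgroup H _ hNn hNmem hidx⟩

/-- a nilpotent Hall subgroup has a normal complement iff it controls its own fusion -/
theorem nilpotent_hall_complement_iff {G : Type*} [Group G] [Finite G]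
    (H : Subgroup G) (hH : Group.IsNilpotent H) (hHall : Nat.Coprime (Nat.card H) H.index) :
    (∃ N : Subgroup G, N.Normal ∧ N.IsComplement' H) ↔
      ∀ x ∈ H, ∀ y ∈ H, (∃ g : G, g * x * g⁻¹ = y) → ∃ h ∈ H, h * x * h⁻¹ = y := by
  constructor
  · rintro ⟨N, hNn, hc⟩ x hx y hy ⟨g, hg⟩
    obtain ⟨⟨⟨n, hn⟩, ⟨h, hh⟩⟩, hnh, -⟩ := hc.existsUnique g
    have hnh' : n * h = g := hnh
    refine ⟨h, hh, ?_⟩
    have h1 : y * (h * x * h⁻¹)⁻¹ ∈ N := by
      have : y * (h * x * h⁻¹)⁻¹ = n * ((h * x * h⁻¹) * n⁻¹ * (h * x * h⁻¹)⁻¹) := by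
        rw [← hg, ← hnh']; group
      rw [this]
      exact N.mul_mem hn (hNn.conj_mem _ (N.inv_mem hn) _)
    have h2 : y * (h * x * h⁻¹)⁻¹ ∈ H :=
      H.mul_mem hy (H.inv_mem (H.mul_mem (H.mul_mem hh hx) (H.inv_mem hh)))
    have h3 : y * (h * x * h⁻¹)⁻¹ = 1 := Subgroup.disjoint_def.mp hc.disjoint h1 h2
    exact (mul_inv_eq_one.mp h3).symm
  · exact exists_normal_complement_of_nilpotent_hall_control H hH hHall

end Cfsg.Agent.Helper1
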