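import Mathlib
import Cfsg.Agent.S0001
import Cfsg.Agent.Helper1.CtrlHall
import Cfsg.Agent.Helper1.Fusion

set_option autoImplicit false

namespace Cfsg.Agent.Helper1

open scoped Pointwise

/-- a Hall subgroup that is central in its normaliser has a normal complement -/
theorem hall_central_aux.{u} : ∀ n : ℕ, ∀ (G : Type u) [Group G] [Finite G], Nat.card G = n →
    ∀ H : Subgroup G, Nat.Coprime (Nat.card H) H.index →
      Subgroup.normalizer (H : Set G) ≤ Subgroup.centralizer (H : Set G) →
      ∃ N : Subgroup G, N.Normal ∧ N.IsComplement' H := by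
  intro n
  induction n using Nat.strong_induction_on with
  | _ n ih =>
    intro G _ _ hcard H hHall hNC
    have hcomm : ∀ a ∈ H, ∀ b ∈ H, a * b = b * a := by
      intro a ha b hb
      have h1 : a ∈ Subgroup.centralizer (H : Set G) := hNC (Subgroup.le_normalizer ha)
      exact (Subgroup.mem_centralizer_iff.mp h1 b hb).symm
    have hF : ∀ x ∈ H, ∀ g : G, g * x * g⁻¹ ∈ H → g * x * g⁻¹ = x := by
      intro x hx g hy
      by_cases htop : Subgroup.centralizer {g * x * g⁻¹} = ⊤
      · have h1 : g⁻¹ ∈ Subgroup.centralizer {g * x * g⁻¹} := by rw [htop]; trivial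
        rw [Subgroup.mem_centralizer_singleton_iff] at h1
        have : x = g * x * g⁻¹ := by
          calc x = (g⁻¹ * (g * x * g⁻¹)) * g := by group
            _ = (g * x * g⁻¹ * g⁻¹) * g := by rw [h1]
            _ = g * x * g⁻¹ := by group
        exact this.symm
      · have hHL : H ≤ Subgroup.centralizer {g * x * g⁻¹} := by
          intro h hh
          rw [Subgroup.mem_centralizer_singleton_iff]
          exact hcomm h hh _ hy
        have hgHL : MulAut.conj g • H ≤ Subgroup.centralizer {g * x * g⁻¹} := by
          intro z hz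
          rw [mem_conj_smul_iff] at hz
          rw [Subgroup.mem_centralizer_singleton_iff]
          have h1 := hcomm _ hz x hx
          calc z * (g * x * g⁻¹) = g * (g⁻¹ * z * g * x) * g⁻¹ := by group
            _ = g * (x * (g⁻¹ * z * g)) * g⁻¹ := by rw [h1]
            _ = g * x * g⁻¹ * z := by group
        have hlt : Nat.card (Subgroup.centralizer {g * x * g⁻¹}) < n := by
          rw [← hcard]
          apply lt_of_le_of_ne (Subgroup.card_le_card_group _)
          intro heq
          exact htop (Subgroup.eq_top_of_card_eq _ heq)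
        have hcardHL : Nat.card (H.subgroupOf (Subgroup.centralizer {g * x * g⁻¹})) =
            Nat.card H := Nat.card_congr (Subgroup.subgroupOfEquivOfLe hHL).toEquiv
        have hHallL : Nat.Coprime (Nat.card (H.subgroupOf (Subgroup.centralizer {g * x * g⁻¹})))
            (H.subgroupOf (Subgroup.centralizer {g * x * g⁻¹})).index := by
          rw [hcardHL]
          exact Nat.Coprime.coprime_dvd_right (Subgroup.relIndex_dvd_index_of_le hHL) hHall
        have hNCL : Subgroup.normalizer
            ((H.subgroupOf (Subgroup.centralizer {g * x * g⁻¹}) :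
              Subgroup (Subgroup.centralizer {g * x * g⁻¹})) :
              Set (Subgroup.centralizer {g * x * g⁻¹})) ≤
            Subgroup.centralizer ((H.subgroupOf (Subgroup.centralizer {g * x * g⁻¹}) :
              Subgroup (Subgroup.centralizer {g * x * g⁻¹})) :
              Set (Subgroup.centralizer {g * x * g⁻¹})) := by
          intro l hl
          have h1 : (l : G) ∈ Subgroup.normalizer (H : Set G) := by
            rw [← Subgroup.subgroupOf_normalizer_eq hHL] at hl
            exact Subgroup.mem_subgroupOf.mp hl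
          have h2 := hNC h1
          rw [Subgroup.mem_centralizer_iff] at h2 ⊢
          intro z hz
          apply Subtype.ext
          exact h2 z (Subgroup.mem_subgroupOf.mp hz)
        obtain ⟨M, hMn, hMc⟩ := ih _ hlt (Subgroup.centralizer {g * x * g⁻¹}) rfl
          (H.subgroupOf (Subgroup.centralizer {g * x * g⁻¹})) hHallL hNCL
        have hcardH' : Nat.card ((MulAut.conj g • H).subgroupOf
            (Subgroup.centralizer {g * x * g⁻¹})) = Nat.card H := by
          rw [Nat.card_congr (Subgroup.subgroupOfEquivOfLe hgHL).toEquiv]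
          exact Cfsg.Agent.S0001.card_conj_smul g H
        have hMidx : (H.subgroupOf (Subgroup.centralizer {g * x * g⁻¹})).index = Nat.card M :=
          hMc.index_eq_card
        have hMcop : Nat.Coprime (Nat.card M) (Nat.card H) := by
          rw [← hMidx, ← hcardHL]
          exact hHallL.symm
        have hMc' : M.IsComplement' ((MulAut.conj g • H).subgroupOf
            (Subgroup.centralizer {g * x * g⁻¹})) := by
          apply Subgroup.isComplement'_of_coprime
          · rw [hcardH', ← hcardHL]
            exact hMc.card_mul_card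
          · rw [hcardH']
            exact hMcop
        have hMN : (Nat.card M).Coprime M.index := by
          rw [hMc.symm.index_eq_card, hcardHL]
          exact hMcop
        have hsolv : Group.IsSolvable (↥(Subgroup.centralizer {g * x * g⁻¹}) ⧸ M) := by
          apply Group.isSolvable_of_comm
          intro a b
          obtain ⟨a', rfl⟩ := QuotientGroup.mk_surjective a
          obtain ⟨b', rfl⟩ := QuotientGroup.mk_surjective b
          obtain ⟨⟨⟨m₁, hm₁⟩, ⟨h₁, hh₁⟩⟩, e₁, -⟩ := hMc.existsUnique a'
          obtain ⟨⟨⟨m₂, hm₂⟩, ⟨h₂, hh₂⟩⟩, e₂, -⟩ := hMc.existsUnique b'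
          have e₁' : m₁ * h₁ = a' := e₁
          have e₂' : m₂ * h₂ = b' := e₂
          have k₁ : (QuotientGroup.mk a' : _ ⧸ M) = QuotientGroup.mk h₁ := by
            rw [← e₁', QuotientGroup.mk_mul, (QuotientGroup.eq_one_iff m₁).mpr hm₁, one_mul]
          have k₂ : (QuotientGroup.mk b' : _ ⧸ M) = QuotientGroup.mk h₂ := by
            rw [← e₂', QuotientGroup.mk_mul, (QuotientGroup.eq_one_iff m₂).mpr hm₂, one_mul]
          have hc12 : h₁ * h₂ = h₂ * h₁ := by
            apply Subtype.ext
            exact hcomm _ (Subgroup.mem_subgroupOf.mp hh₁) _ (Subgroup.mem_subgroupOf.mp hh₂)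
          rw [k₁, k₂, ← QuotientGroup.mk_mul, ← QuotientGroup.mk_mul, hc12]
        obtain ⟨l, hl⟩ := Cfsg.Agent.S0001.result M hMN (Or.inr hsolv)
          (H.subgroupOf (Subgroup.centralizer {g * x * g⁻¹}))
          ((MulAut.conj g • H).subgroupOf (Subgroup.centralizer {g * x * g⁻¹})) hMc hMc'
        have hconj : ∀ h ∈ H, (g⁻¹ * (l : G))⁻¹⁻¹ * h * (g⁻¹ * (l : G))⁻¹ ∈ H := by
          intro h hh
          have h1 : l * (⟨h, hHL hh⟩ : Subgroup.centralizer {g * x * g⁻¹}) * l⁻¹ ∈
              MulAut.conj l • (H.subgroupOf (Subgroup.centralizer {g * x * g⁻¹})) := by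
            rw [mem_conj_smul_iff]
            have : l⁻¹ * (l * (⟨h, hHL hh⟩ : Subgroup.centralizer {g * x * g⁻¹}) * l⁻¹) * l =
                ⟨h, hHL hh⟩ := by group
            rw [this, Subgroup.mem_subgroupOf]
            exact hh
          rw [hl, Subgroup.mem_subgroupOf, mem_conj_smul_iff] at h1
          have : (g⁻¹ * (l : G))⁻¹⁻¹ * h * (g⁻¹ * (l : G))⁻¹ =
              g⁻¹ * ((l : G) * h * (l : G)⁻¹) * g := by group
          rw [this]
          exact h1
        have hnorm : (g⁻¹ * (l : G))⁻¹ ∈ Subgroup.normalizer (H : Set G) :=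
          mem_normalizer_of_conj_mem H _ hconj
        have hcent := hNC hnorm
        have h3 : x * (g⁻¹ * (l : G))⁻¹ = (g⁻¹ * (l : G))⁻¹ * x :=
          Subgroup.mem_centralizer_iff.mp hcent x hx
        have h4 : (l : G) * (g * x * g⁻¹) = g * x * g⁻¹ * (l : G) :=
          Subgroup.mem_centralizer_singleton_iff.mp l.2
        have h5 : (l : G) * x * (l : G)⁻¹ = g * x * g⁻¹ := by
          calc (l : G) * x * (l : G)⁻¹ = g * ((g⁻¹ * (l : G))⁻¹⁻¹ * (x * (g⁻¹ * (l : G))⁻¹)) * g⁻¹ := by
                group
            _ = g * ((g⁻¹ * (l : G))⁻¹⁻¹ * ((g⁻¹ * (l : G))⁻¹ * x)) * g⁻¹ := by rw [h3]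
            _ = g * x * g⁻¹ := by group
        have h6 : (l : G) * (g * x * g⁻¹) * (l : G)⁻¹ = g * x * g⁻¹ := by
          rw [h4]; group
        have h7 : (l : G) * x * (l : G)⁻¹ = (l : G) * (g * x * g⁻¹) * (l : G)⁻¹ := by
          rw [h5, h6]
        exact (mul_left_cancel (mul_right_cancel h7)).symm
    have hnil : Group.IsNilpotent H :=
      ⟨⟨1, Subgroup.upperCentralSeries_one_eq_top_iff.mpr
        ⟨⟨fun a b => Subtype.ext (hcomm a a.2 b b.2)⟩⟩⟩⟩
    apply exists_normal_complement_of_nilpotent_hall_control H hnil hHall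
    intro x hx y hy ⟨g, hg⟩
    refine ⟨1, H.one_mem, ?_⟩
    rw [one_mul, inv_one, mul_one, ← hg]
    exact (hF x hx g (by rw [hg]; exact hy)).symm

end Cfsg.Agent.Helper1
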