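import Mathlib

set_option autoImplicit false

namespace Cfsg.Agent.Helper1.LinRep4

theorem zmod2_ne_zero : ∀ x : ZMod 2, x ≠ 0 → x = 1 := by decide

/-- A group acting linearly on an `𝔽₂`-space of order at most `16` maps to `SL₄(2)` with kernel
the kernel of the action. -/
theorem exists_rep_module {G W : Type*} [Group G] [AddCommGroup W] [Module (ZMod 2) W] [Finite W]
    (hcard : Nat.card W ≤ 16) (L : G → (W →ₗ[ZMod 2] W)) (h1 : L 1 = LinearMap.id)
    (hmul : ∀ g h, L (g * h) = (L g).comp (L h)) :
    ∃ ρ : G →* Matrix.SpecialLinearGroup (Fin 4) (ZMod 2),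
      ∀ g, ρ g = 1 ↔ L g = LinearMap.id := by
  classical
  have : Module.Finite (ZMod 2) W := Module.Finite.of_finite
  have hr : Module.finrank (ZMod 2) W ≤ 4 := by
    have h := Module.natCard_eq_pow_finrank (K := ZMod 2) (V := W)
    rw [Nat.card_zmod] at h
    by_contra hc
    push Not at hc
    have : 2 ^ 5 ≤ 2 ^ Module.finrank (ZMod 2) W := Nat.pow_le_pow_right (by norm_num) hc
    omega
  obtain ⟨r, hr'⟩ : ∃ r, r = Module.finrank (ZMod 2) W := ⟨_, rfl⟩
  have hfr : Module.finrank (ZMod 2) (W × (Fin (4 - r) → ZMod 2)) = 4 := by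
    rw [Module.finrank_prod, Module.finrank_fin_fun, ← hr']; omega
  obtain ⟨b⟩ : Nonempty (Module.Basis (Fin 4) (ZMod 2) (W × (Fin (4 - r) → ZMod 2))) :=
    ⟨Module.finBasisOfFinrankEq _ _ hfr⟩
  obtain ⟨T, hT⟩ : ∃ T : G → Matrix (Fin 4) (Fin 4) (ZMod 2),
      T = fun g => LinearMap.toMatrix b b ((L g).prodMap LinearMap.id) := ⟨_, rfl⟩
  have hT1 : T 1 = 1 := by
    rw [hT]
    show LinearMap.toMatrix b b ((L 1).prodMap LinearMap.id) = 1
    rw [h1, LinearMap.prodMap_id, LinearMap.toMatrix_id]
  have hTmul : ∀ g h, T (g * h) = T g * T h := by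
    intro g h
    rw [hT]
    show LinearMap.toMatrix b b ((L (g * h)).prodMap LinearMap.id) =
      LinearMap.toMatrix b b ((L g).prodMap LinearMap.id) *
        LinearMap.toMatrix b b ((L h).prodMap LinearMap.id)
    rw [hmul, ← LinearMap.toMatrix_comp b b b]
    congr 1
  have hdet : ∀ g, (T g).det = 1 := by
    intro g
    apply zmod2_ne_zero
    intro h0
    have : (T g * T g⁻¹).det = 1 := by rw [← hTmul, mul_inv_cancel, hT1, Matrix.det_one]
    rw [Matrix.det_mul, h0, zero_mul] at this
    exact zero_ne_one this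
  refine ⟨{ toFun := fun g => ⟨T g, hdet g⟩, map_one' := Subtype.ext hT1,
            map_mul' := fun g h => Subtype.ext (hTmul g h) }, ?_⟩
  intro g
  constructor
  · intro hg
    have hTg : T g = 1 := congrArg Subtype.val hg
    have h3 : (L g).prodMap (LinearMap.id : (Fin (4 - r) → ZMod 2) →ₗ[ZMod 2] _) =
        LinearMap.id := by
      apply (LinearMap.toMatrix b b).injective
      rw [LinearMap.toMatrix_id, ← hTg, hT]
    ext w
    have := congrArg (fun f => (f (w, 0)).1) h3
    simpa using this
  · intro hg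
    apply Subtype.ext
    show T g = 1
    rw [hT]
    show LinearMap.toMatrix b b ((L g).prodMap LinearMap.id) = 1
    rw [hg, LinearMap.prodMap_id, LinearMap.toMatrix_id]

/-- A group acting on an elementary abelian `2`-group of order at most `16` maps to `SL₄(2)`
with kernel the kernel of the action. -/
theorem exists_rep {G V : Type*} [Group G] [CommGroup V] [Finite V]
    (h2 : ∀ v : V, v ^ 2 = 1) (hcard : Nat.card V ≤ 16) (f : G → V →* V)
    (h1 : ∀ v, f 1 v = v) (hmul : ∀ g h v, f (g * h) v = f g (f h v)) :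
    ∃ ρ : G →* Matrix.SpecialLinearGroup (Fin 4) (ZMod 2),
      ∀ g, ρ g = 1 ↔ ∀ v, f g v = v := by
  letI : Module (ZMod 2) (Additive V) := AddCommGroup.zmodModule (fun x => by
    exact congrArg Additive.ofMul (h2 (Additive.toMul x)))
  have hL1 : (MonoidHom.toAdditive (f 1)).toZModLinearMap 2 = LinearMap.id := by
    ext w
    exact congrArg Additive.ofMul (h1 (Additive.toMul w))
  have hLmul : ∀ g h : G, (MonoidHom.toAdditive (f (g * h))).toZModLinearMap 2 =
      ((MonoidHom.toAdditive (f g)).toZModLinearMap 2).comp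
        ((MonoidHom.toAdditive (f h)).toZModLinearMap 2) := by
    intro g h
    ext w
    exact congrArg Additive.ofMul (hmul g h (Additive.toMul w))
  obtain ⟨ρ, hρ⟩ := exists_rep_module (G := G) (W := Additive V)
    (show Nat.card (Additive V) ≤ 16 from hcard)
    (fun g => (MonoidHom.toAdditive (f g)).toZModLinearMap 2) hL1 hLmul
  refine ⟨ρ, fun g => (hρ g).trans ?_⟩
  constructor
  · intro h v
    have := congrArg (fun L => L (Additive.ofMul v)) h
    exact congrArg Additive.toMul this
  · intro h
    ext w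
    exact congrArg Additive.ofMul (h (Additive.toMul w))

end Cfsg.Agent.Helper1.LinRep4
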