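import Mathlib
import Cfsg.Agent.Lead.Quat
import Cfsg.Agent.Helper1.Rank2

set_option autoImplicit false

namespace Cfsg.Agent.Helper1

/-- a normal subgroup of order `p ^ k` inside a normal subgroup `A` of a `p`-group whose
centraliser has index at most `p ^ (k (k - 1) / 2)` -/
theorem exists_normal_chain_centralizer {G : Type*} [Group G] [Finite G] {p : ℕ}
    [hp : Fact p.Prime] (hG : IsPGroup p G) (A : Subgroup G) (hAn : A.Normal) (a : ℕ)
    (ha : Nat.card A = p ^ a) :
    ∀ k : ℕ, k ≤ a → ∃ B : Subgroup G, B.Normal ∧ B ≤ A ∧ Nat.card B = p ^ k ∧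
      (Subgroup.centralizer (B : Set G)).index ≤ p ^ (k * (k - 1) / 2) := by
  have hp1 := hp.out.one_lt
  intro k
  induction k with
  | zero =>
    intro _
    refine ⟨⊥, inferInstance, bot_le, by rw [Subgroup.card_bot, pow_zero], ?_⟩
    have : Subgroup.centralizer (((⊥ : Subgroup G) : Subgroup G) : Set G) = ⊤ := by
      rw [eq_top_iff]
      intro g _
      rw [Subgroup.mem_centralizer_iff]
      intro x hx
      rw [SetLike.mem_coe, Subgroup.mem_bot] at hx
      rw [hx, one_mul, mul_one]
    rw [this, Subgroup.index_top]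
    exact Nat.one_le_pow _ _ hp.out.pos
  | succ k ih =>
    intro hk
    obtain ⟨B, hBn, hBA, hBcard, hBidx⟩ := ih (by omega)
    have hBne : B ≠ A := by
      intro heq
      rw [heq, ha] at hBcard
      have := Nat.pow_right_injective hp.out.two_le hBcard
      omega
    obtain ⟨B', hB'n, hBB', hB'A, hrel, hB'c⟩ := exists_normal_step' hG B A hBn hAn hBA hBne
    have hB'card : Nat.card B' = p ^ (k + 1) := by
      rw [← Subgroup.relIndex_bot_left, ← Subgroup.relIndex_mul_relIndex ⊥ B B' bot_le hBB',
        Subgroup.relIndex_bot_left, hBcard, hrel, pow_succ]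
    obtain ⟨b', hb'B', hb'B⟩ := SetLike.not_le_iff_exists.mp (fun h : B' ≤ B => by
      have := Subgroup.relIndex_eq_one.mpr h
      rw [hrel] at this
      omega)
    have hle : Subgroup.centralizer (B : Set G) ⊓ Subgroup.centralizer {b'} ≤
        Subgroup.centralizer (B' : Set G) := by
      intro c hc
      have hc' := Subgroup.mem_inf.mp hc
      have hcb : c * b' = b' * c := Subgroup.mem_centralizer_singleton_iff.mp hc'.2
      have hD : B' ⊓ Subgroup.centralizer {c} = B' := by
        apply Subgroup.eq_of_le_of_card_ge inf_le_left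
        have h1 : B ≤ B' ⊓ Subgroup.centralizer {c} := by
          intro b hb
          refine Subgroup.mem_inf.mpr ⟨hBB' hb, Subgroup.mem_centralizer_singleton_iff.mpr ?_⟩
          exact Subgroup.mem_centralizer_iff.mp hc'.1 b hb
        have h2 : b' ∈ B' ⊓ Subgroup.centralizer {c} :=
          Subgroup.mem_inf.mpr ⟨hb'B', Subgroup.mem_centralizer_singleton_iff.mpr hcb.symm⟩
        have h3 : Nat.card ↥(B' ⊓ Subgroup.centralizer {c}) ∣ p ^ (k + 1) := by
          rw [← hB'card]; exact Subgroup.card_dvd_of_le inf_le_left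
        obtain ⟨j, hj2, hj⟩ := (Nat.dvd_prime_pow hp.out).mp h3
        have h4 : p ^ k ∣ Nat.card ↥(B' ⊓ Subgroup.centralizer {c}) := by
          rw [← hBcard]; exact Subgroup.card_dvd_of_le h1
        rw [hj] at h4
        have h5 : k ≤ j := (Nat.pow_dvd_pow_iff_le_right hp1).mp h4
        have h6 : j ≠ k := by
          intro hjk
          rw [hjk] at hj
          have : B = B' ⊓ Subgroup.centralizer {c} :=
            Subgroup.eq_of_le_of_card_ge h1 (by rw [hj, hBcard])
          exact hb'B (this ▸ h2)
        have h7 : j = k + 1 := by omega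
        rw [hB'card, hj, h7]
      rw [Subgroup.mem_centralizer_iff]
      intro y hy
      have hy' : y ∈ B' ⊓ Subgroup.centralizer {c} := by rw [hD]; exact hy
      exact (Subgroup.mem_centralizer_singleton_iff.mp (Subgroup.mem_inf.mp hy').2)
    have h1 : (Subgroup.centralizer {b'}).index ≤ Nat.card B := by
      apply index_centralizer_singleton_le
      intro g
      exact hB'c g b' hb'B'
    refine ⟨B', hB'n, hB'A, hB'card, ?_⟩
    calc (Subgroup.centralizer (B' : Set G)).index
        ≤ (Subgroup.centralizer (B : Set G) ⊓ Subgroup.centralizer {b'}).index :=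
          Nat.le_of_dvd (Nat.pos_of_ne_zero Subgroup.index_ne_zero_of_finite)
            (Subgroup.index_dvd_of_le hle)
      _ ≤ (Subgroup.centralizer (B : Set G)).index * (Subgroup.centralizer {b'}).index :=
          Subgroup.index_inf_le
      _ ≤ p ^ (k * (k - 1) / 2) * p ^ k := Nat.mul_le_mul hBidx (by rw [← hBcard]; exact h1)
      _ = p ^ ((k + 1) * (k + 1 - 1) / 2) := by rw [Nat.triangle_succ, pow_add]

/-- the order of a `p`-group with a maximal normal abelian subgroup of order `p ^ a` is at most
`p ^ (a (a + 1) / 2)` -/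
theorem card_le_of_maximal_normal_abelian {G : Type*} [Group G] [Finite G] {p : ℕ}
    [hp : Fact p.Prime] (hG : IsPGroup p G) (A : Subgroup G) (hAn : A.Normal)
    (hA : ∀ x ∈ A, ∀ y ∈ A, x * y = y * x)
    (hmax : ∀ B : Subgroup G, B.Normal → (∀ x ∈ B, ∀ y ∈ B, x * y = y * x) → A ≤ B → B = A)
    (a : ℕ) (ha : Nat.card A = p ^ a) : Nat.card G ≤ p ^ (a * (a + 1) / 2) := by
  obtain ⟨B, hBn, hBA, hBcard, hBidx⟩ := exists_normal_chain_centralizer hG A hAn a ha a le_rfl
  have hBeq : B = A := Subgroup.eq_of_le_of_card_ge hBA (by rw [hBcard, ha])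
  rw [hBeq] at hBidx
  haveI := hAn
  have hCA := Cfsg.Agent.Lead.centralizer_le_of_maximal_normal_abelian p hG A hA hmax
  have h1 : A.index ≤ p ^ (a * (a - 1) / 2) :=
    le_trans (Nat.le_of_dvd (Nat.pos_of_ne_zero Subgroup.index_ne_zero_of_finite)
      (Subgroup.index_dvd_of_le hCA)) hBidx
  have h2 : a * (a + 1) / 2 = a * (a - 1) / 2 + a := by
    have := Nat.triangle_succ a
    rw [Nat.add_sub_cancel, mul_comm] at this
    exact this
  rw [← Subgroup.card_mul_index A, ha, h2, pow_add, mul_comm]
  exact Nat.mul_le_mul h1 le_rfl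

end Cfsg.Agent.Helper1
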