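import Mathlib

set_option autoImplicit false

namespace Cfsg.Agent.Helper1.NormPair

open Polynomial IntermediateField

/-- In an extension of prime degree, the norm of a non-base element is read off its minimal
polynomial. -/
theorem norm_eq_coeff_minpoly {K L : Type*} [Field K] [Field L] [Algebra K L]
    [FiniteDimensional K L] [Algebra.IsSeparable K L] (hq : (Module.finrank K L).Prime) (x : L)
    (hx : x ∉ (algebraMap K L).range) :
    (minpoly K x).natDegree = Module.finrank K L ∧
    Algebra.norm K x = (-1) ^ Module.finrank K L * (minpoly K x).coeff 0 := by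
  have hint : IsIntegral K x := IsIntegral.of_finite K x
  have h2 : Module.finrank K K⟮x⟯ = (minpoly K x).natDegree := IntermediateField.adjoin.finrank hint
  have hmul := Module.finrank_mul_finrank K K⟮x⟯ L
  have hdvd : Module.finrank K K⟮x⟯ ∣ Module.finrank K L := ⟨_, hmul.symm⟩
  have hdeg : (minpoly K x).natDegree = Module.finrank K L := by
    rcases (Nat.dvd_prime hq).mp hdvd with h | h
    · exfalso
      rw [h2] at h
      exact hx ((minpoly.natDegree_eq_one_iff).mp h)
    · rw [← h2, h]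
  refine ⟨hdeg, ?_⟩
  have h3 : Module.finrank K⟮x⟯ L = 1 := by
    rw [h2, hdeg] at hmul
    have hpos : 0 < Module.finrank K L := hq.pos
    exact Nat.eq_of_mul_eq_mul_left hpos (by rw [hmul, mul_one])
  rw [Algebra.norm_eq_norm_adjoin K x, h3, pow_one]
  have h4 := Algebra.PowerBasis.norm_gen_eq_coeff_zero_minpoly (IntermediateField.adjoin.powerBasis hint)
  rw [IntermediateField.adjoin.powerBasis_gen, IntermediateField.adjoin.powerBasis_dim,
    IntermediateField.minpoly_gen, hdeg] at h4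
  exact h4

theorem exists_param {p : ℕ} [Fact p.Prime] :
    ∃ s : ZMod p, ∀ x : ZMod p, x ^ 3 - s * x ^ 2 + (2 * s - 3) * x - 1 ≠ 0 := by
  by_contra hcon
  push Not at hcon
  choose r hr using hcon
  have h1 : (1 : ZMod p) ≠ 0 := one_ne_zero
  have hr0 : ∀ s, r s ≠ 0 := by
    intro s h0
    have := hr s
    rw [h0] at this
    apply h1
    linear_combination -this
  have hr2 : ∀ s, r s ≠ 2 := by
    intro s h0
    have := hr s
    rw [h0] at this
    apply h1
    linear_combination this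
  have hinj : Function.Injective r := by
    intro s s' hss
    have e1 := hr s
    have e2 := hr s'
    rw [← hss] at e2
    have e3 : (s - s') * (r s * (r s - 2)) = 0 := by linear_combination e2 - e1
    rcases mul_eq_zero.mp e3 with h | h
    · exact sub_eq_zero.mp h
    · rcases mul_eq_zero.mp h with h | h
      · exact absurd h (hr0 s)
      · exact absurd (sub_eq_zero.mp h) (hr2 s)
  obtain ⟨s, hs⟩ := (Finite.injective_iff_surjective.mp hinj) 0
  exact hr0 s hs

theorem case_three {p : ℕ} [Fact p.Prime] :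
    ∃ a : GaloisField p 3, a ≠ 1 ∧ Algebra.norm (ZMod p) a = 1 ∧
      Algebra.norm (ZMod p) (2 - a) = 1 := by
  obtain ⟨s, hs⟩ := exists_param (p := p)
  set g : (ZMod p)[X] := X ^ 3 - C s * X ^ 2 + C (2 * s - 3) * X - 1 with hg
  have hdeg : g.natDegree = 3 := by rw [hg]; compute_degree!
  have hmon : g.Monic := by rw [hg]; monicity!
  have heval : ∀ x : ZMod p, g.eval x = x ^ 3 - s * x ^ 2 + (2 * s - 3) * x - 1 := by
    intro x
    simp [hg]
  have hirr : Irreducible g := by
    apply Polynomial.irreducible_of_degree_le_three_of_not_isRoot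
    · rw [hdeg]; decide
    · intro x hx
      exact hs x (by rw [← heval]; exact hx)
  have : Fact (Irreducible g) := ⟨hirr⟩
  have hg0 : g ≠ 0 := hmon.ne_zero
  let pb := AdjoinRoot.powerBasis hg0
  have : Module.Finite (ZMod p) (AdjoinRoot g) := PowerBasis.finite pb
  have hfr : Module.finrank (ZMod p) (AdjoinRoot g) = 3 := by
    rw [PowerBasis.finrank pb, AdjoinRoot.powerBasis_dim, hdeg]
  have : Finite (AdjoinRoot g) := Module.finite_of_finite (ZMod p)
  have hcard : Nat.card (AdjoinRoot g) = p ^ 3 := by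
    rw [Module.natCard_eq_pow_finrank (K := ZMod p), Nat.card_zmod, hfr]
  let e := GaloisField.algEquivGaloisField p 3 hcard
  obtain ⟨a, ha⟩ : ∃ a : GaloisField p 3, a = e (AdjoinRoot.root g) := ⟨_, rfl⟩
  have haev : aeval a g = 0 := by
    rw [ha, Polynomial.aeval_algEquiv, AlgHom.comp_apply, AdjoinRoot.aeval_eq, AdjoinRoot.mk_self,
      map_zero]
  have hmin : minpoly (ZMod p) a = g := (minpoly.eq_of_irreducible_of_monic hirr haev hmon).symm
  have hfin : Module.finrank (ZMod p) (GaloisField p 3) = 3 := GaloisField.finrank p (by norm_num)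
  have hq : (Module.finrank (ZMod p) (GaloisField p 3)).Prime := by rw [hfin]; exact Nat.prime_three
  have haK : a ∉ (algebraMap (ZMod p) (GaloisField p 3)).range := by
    intro h
    have := (minpoly.natDegree_eq_one_iff).mpr h
    rw [hmin, hdeg] at this
    omega
  have h2aK : 2 - a ∉ (algebraMap (ZMod p) (GaloisField p 3)).range := by
    intro h
    apply haK
    have h2 : (2 : GaloisField p 3) ∈ (algebraMap (ZMod p) (GaloisField p 3)).range :=
      ⟨2, map_ofNat _ 2⟩
    have := Subring.sub_mem _ h2 h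
    simpa using this
  refine ⟨a, ?_, ?_, ?_⟩
  · intro h1
    apply haK
    rw [h1]
    exact Subring.one_mem _
  · rw [(norm_eq_coeff_minpoly hq a haK).2, hfin, hmin, coeff_zero_eq_eval_zero, heval]
    ring
  · rw [(norm_eq_coeff_minpoly hq (2 - a) h2aK).2, hfin]
    have e2 : (2 : GaloisField p 3) - a = -a + algebraMap (ZMod p) (GaloisField p 3) 2 := by
      rw [map_ofNat]; ring
    rw [e2, minpoly.add_algebraMap, minpoly.neg, hmin, hdeg, coeff_zero_eq_eval_zero]
    simp only [eval_comp, eval_mul, eval_pow, eval_neg, eval_one, eval_sub, eval_X, eval_C,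
      zero_sub, neg_neg]
    rw [heval]
    ring

section chars

variable (p q : ℕ) [Fact p.Prime]

/-- The multiplicative character of `GaloisField p q` obtained from one of `ZMod p` through the
norm. -/
noncomputable def normChar (l : MulChar (ZMod p) ℂ) : MulChar (GaloisField p q) ℂ where
  toFun x := l (Algebra.norm (ZMod p) x)
  map_one' := by simp
  map_mul' x y := by simp [map_mul]
  map_nonunit' x hx := by
    have h0 : x = 0 := by
      by_contra h
      exact hx (isUnit_iff_ne_zero.mpr h)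
    rw [h0, Algebra.norm_zero]
    exact MulChar.map_zero l

theorem normChar_apply (l : MulChar (ZMod p) ℂ) (x : GaloisField p q) :
    normChar p q l x = l (Algebra.norm (ZMod p) x) := rfl

theorem normChar_one : normChar p q 1 = 1 := by
  apply MulChar.ext
  intro a
  rw [normChar_apply, MulChar.one_apply_coe]
  apply MulChar.one_apply
  rw [isUnit_iff_ne_zero, Algebra.norm_ne_zero_iff]
  exact a.ne_zero

theorem normChar_mul (l m : MulChar (ZMod p) ℂ) :
    normChar p q l * normChar p q m = normChar p q (l * m) := by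
  apply MulChar.ext'
  intro a
  rw [MulChar.mul_apply, normChar_apply, normChar_apply, normChar_apply, MulChar.mul_apply]

theorem normChar_inv (l : MulChar (ZMod p) ℂ) :
    (normChar p q l)⁻¹ = normChar p q l⁻¹ := by
  apply MulChar.ext'
  intro a
  rw [MulChar.inv_apply_eq_inv', normChar_apply, normChar_apply, MulChar.inv_apply_eq_inv']

theorem normChar_ne_one {l : MulChar (ZMod p) ℂ} (hl : l ≠ 1) : normChar p q l ≠ 1 := by
  obtain ⟨t, ht⟩ := MulChar.ne_one_iff.mp hl
  obtain ⟨x, hx⟩ := FiniteField.norm_surjective (ZMod p) (GaloisField p q) (t : ZMod p)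
  have hx0 : x ≠ 0 := by
    intro h0
    rw [h0, Algebra.norm_zero] at hx
    exact t.ne_zero hx.symm
  intro h1
  apply ht
  have h2 : normChar p q l x = (1 : MulChar (GaloisField p q) ℂ) x := by rw [h1]
  rw [normChar_apply, hx, MulChar.one_apply (isUnit_iff_ne_zero.mpr hx0)] at h2
  exact h2

end chars

section jac

variable {F : Type*} [Field F] [Fintype F]

theorem norm_mulChar_neg_one (χ : MulChar F ℂ) : ‖χ (-1)‖ = 1 := by
  have h : χ (-1) ^ 2 = 1 := by
    rw [← map_pow]
    simp
  have h2 : ‖χ (-1)‖ ^ 2 = 1 := by rw [← norm_pow, h, norm_one]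
  exact (pow_eq_one_iff_of_nonneg (norm_nonneg _) (by norm_num)).mp h2

theorem norm_jacobi_le {pp : ℕ} [CharP F pp] (hpp : pp ≠ 0) (χ ψ : MulChar F ℂ) (h : χ ≠ 1 ∨ ψ ≠ 1) :
    ‖jacobiSum χ ψ‖ ≤ Real.sqrt (Fintype.card F) := by
  have hcard : (1 : ℝ) ≤ Real.sqrt (Fintype.card F) := by
    rw [Real.one_le_sqrt]
    exact_mod_cast Fintype.card_pos
  by_cases hχ : χ = 1
  · have hψ : ψ ≠ 1 := h.resolve_left (not_not.mpr hχ)
    rw [hχ, jacobiSum_one_nontrivial hψ, norm_neg, norm_one]
    exact hcard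
  by_cases hψ : ψ = 1
  · rw [hψ, jacobiSum_comm, jacobiSum_one_nontrivial hχ, norm_neg, norm_one]
    exact hcard
  by_cases hχψ : χ * ψ = 1
  · have hψ' : ψ = χ⁻¹ := eq_inv_of_mul_eq_one_right hχψ
    rw [hψ', jacobiSum_nontrivial_inv hχ, norm_neg, norm_mulChar_neg_one]
    exact hcard
  · have hchar : ringChar ℂ ≠ ringChar F := by
      rw [ringChar.eq ℂ 0, ringChar.eq F pp]
      exact hpp.symm
    have h1 := jacobiSum_mul_jacobiSum_inv hchar hχ hψ hχψ
    have h2 : jacobiSum χ⁻¹ ψ⁻¹ = star (jacobiSum χ ψ) := by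
      unfold jacobiSum
      rw [star_sum]
      apply Finset.sum_congr rfl
      intro x _
      rw [star_mul', MulChar.star_apply', MulChar.star_apply']
    rw [h2] at h1
    have h3 : ‖jacobiSum χ ψ‖ ^ 2 = (Fintype.card F : ℝ) := by
      have h4 : (jacobiSum χ ψ) * star (jacobiSum χ ψ) = ((‖jacobiSum χ ψ‖ ^ 2 : ℝ) : ℂ) := by
        rw [Complex.star_def, Complex.mul_conj, Complex.normSq_eq_norm_sq]
      rw [h4] at h1
      exact_mod_cast h1
    rw [← h3, Real.sqrt_sq (norm_nonneg _)]

end jac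

theorem case_large {p q : ℕ} [Fact p.Prime] (hp : p ≠ 2) (hq5 : 5 ≤ q) :
    2 ≤ Set.ncard {a : GaloisField p q | Algebra.norm (ZMod p) a = 1 ∧
      Algebra.norm (ZMod p) (2 - a) = 1} := by
  classical
  have : Fintype (GaloisField p q) := Fintype.ofFinite _
  have hp' : p.Prime := Fact.out
  have hp3 : 3 ≤ p := by
    have := hp'.two_le
    omega
  have hcardF : Fintype.card (GaloisField p q) = p ^ q := by
    rw [← Nat.card_eq_fintype_card, GaloisField.card p q (by omega)]
  obtain ⟨N, hN⟩ : ∃ N : GaloisField p q →* ZMod p, N = Algebra.norm (ZMod p) := ⟨_, rfl⟩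
  rw [← hN]
  let Efin : Finset (GaloisField p q) := Finset.univ.filter (fun a => N a = 1 ∧ N (2 - a) = 1)
  have hE : {a : GaloisField p q | N a = 1 ∧ N (2 - a) = 1} = ↑Efin := by
    ext a
    simp [Efin]
  rw [hE, Set.ncard_coe_finset]
  have h2K : (2 : ZMod p) ≠ 0 := by
    intro h
    have h' : ((2 : ℕ) : ZMod p) = 0 := by exact_mod_cast h
    rw [ZMod.natCast_eq_zero_iff] at h'
    have := Nat.le_of_dvd (by norm_num) h'
    omega
  have h2F : (2 : GaloisField p q) ≠ 0 := by
    intro h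
    have h' : algebraMap (ZMod p) (GaloisField p q) 2 = 0 := by rw [map_ofNat]; exact h
    exact h2K ((map_eq_zero _).mp h')
  -- the character sum
  obtain ⟨T, hT⟩ : ∃ T : ℂ, T = ∑ l : MulChar (ZMod p) ℂ, ∑ m : MulChar (ZMod p) ℂ,
      ∑ x : GaloisField p q, l (N x) * m (N (2 - x)) := ⟨_, rfl⟩
  have hT1 : T = ((p.totient : ℂ)) ^ 2 * (Efin.card : ℂ) := by
    rw [hT]
    have e1 : ∑ l : MulChar (ZMod p) ℂ, ∑ m : MulChar (ZMod p) ℂ,
        ∑ x : GaloisField p q, l (N x) * m (N (2 - x)) =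
        ∑ x : GaloisField p q, (∑ l : MulChar (ZMod p) ℂ, l (N x)) *
          (∑ m : MulChar (ZMod p) ℂ, m (N (2 - x))) := by
      rw [Finset.sum_congr rfl (fun l _ => Finset.sum_comm), Finset.sum_comm]
      apply Finset.sum_congr rfl
      intro x _
      rw [Finset.sum_mul_sum]
    rw [e1]
    have e2 : ∀ x : GaloisField p q, (∑ l : MulChar (ZMod p) ℂ, l (N x)) *
          (∑ m : MulChar (ZMod p) ℂ, m (N (2 - x))) =
        if (N x = 1 ∧ N (2 - x) = 1) then ((p.totient : ℂ)) ^ 2 else 0 := by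
      intro x
      have s1 := DirichletCharacter.sum_characters_eq ℂ (n := p) (N x)
      have s2 := DirichletCharacter.sum_characters_eq ℂ (n := p) (N (2 - x))
      rw [s1, s2]
      split_ifs <;> simp_all [sq]
    rw [Finset.sum_congr rfl (fun x _ => e2 x), ← Finset.sum_filter, Finset.sum_const,
      nsmul_eq_mul, mul_comm]
  have hterm : ∀ l m : MulChar (ZMod p) ℂ, ∑ x : GaloisField p q, l (N x) * m (N (2 - x)) =
      normChar p q l 2 * normChar p q m 2 * jacobiSum (normChar p q l) (normChar p q m) := by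
    intro l m
    have e1 := (Equiv.sum_comp (Equiv.mulLeft₀ (2 : GaloisField p q) h2F)
      (fun y => l (N y) * m (N (2 - y)))).symm
    rw [e1]
    unfold jacobiSum
    rw [Finset.mul_sum]
    apply Finset.sum_congr rfl
    intro x _
    rw [normChar_apply, normChar_apply, normChar_apply, normChar_apply, ← hN]
    have e2 : (Equiv.mulLeft₀ (2 : GaloisField p q) h2F) x = 2 * x := rfl
    have e3 : (2 : GaloisField p q) - 2 * x = 2 * (1 - x) := by ring
    rw [e2, e3, map_mul, map_mul, map_mul, map_mul]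
    ring
  -- rewrite T as a sum over pairs
  obtain ⟨term, hterm_def⟩ : ∃ term : MulChar (ZMod p) ℂ × MulChar (ZMod p) ℂ → ℂ,
      term = fun pr => normChar p q pr.1 2 * normChar p q pr.2 2 *
        jacobiSum (normChar p q pr.1) (normChar p q pr.2) := ⟨_, rfl⟩
  have hT2 : T = ∑ pr : MulChar (ZMod p) ℂ × MulChar (ZMod p) ℂ, term pr := by
    rw [hT, Fintype.sum_prod_type]
    apply Finset.sum_congr rfl
    intro l _
    apply Finset.sum_congr rfl
    intro m _
    rw [hterm l m, hterm_def]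
  have hT3 : T = term (1, 1) + ∑ pr ∈ (Finset.univ.erase
      ((1, 1) : MulChar (ZMod p) ℂ × MulChar (ZMod p) ℂ)), term pr := by
    rw [hT2]
    exact (Finset.add_sum_erase Finset.univ term (Finset.mem_univ _)).symm
  have hterm11 : term (1, 1) = (p : ℂ) ^ q - 2 := by
    rw [hterm_def]
    simp only
    rw [normChar_one, MulChar.one_apply (isUnit_iff_ne_zero.mpr h2F), jacobiSum_one_one, hcardF]
    push_cast
    ring
  obtain ⟨s, hs⟩ : ∃ s : ℝ, s = Real.sqrt ((p : ℝ) ^ q) := ⟨_, rfl⟩
  have hbound : ∀ pr ∈ (Finset.univ.erase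
      ((1, 1) : MulChar (ZMod p) ℂ × MulChar (ZMod p) ℂ)), ‖term pr‖ ≤ s := by
    intro pr hpr
    have hne : pr ≠ (1, 1) := (Finset.mem_erase.mp hpr).1
    have hne' : pr.1 ≠ 1 ∨ pr.2 ≠ 1 := by
      by_contra hcon
      push Not at hcon
      exact hne (Prod.ext hcon.1 hcon.2)
    have hne'' : normChar p q pr.1 ≠ 1 ∨ normChar p q pr.2 ≠ 1 :=
      hne'.imp (normChar_ne_one p q) (normChar_ne_one p q)
    have hJ := norm_jacobi_le (pp := p) hp'.ne_zero (normChar p q pr.1) (normChar p q pr.2) hne''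
    rw [hcardF] at hJ
    rw [hterm_def]
    simp only
    rw [norm_mul, norm_mul, normChar_apply, normChar_apply]
    have h1 := DirichletCharacter.norm_le_one pr.1 (Algebra.norm (ZMod p) (2 : GaloisField p q))
    have h2 := DirichletCharacter.norm_le_one pr.2 (Algebra.norm (ZMod p) (2 : GaloisField p q))
    have hJ' : ‖jacobiSum (normChar p q pr.1) (normChar p q pr.2)‖ ≤ s := by
      rw [hs]
      push_cast at hJ
      exact hJ
    calc ‖pr.1 (Algebra.norm (ZMod p) (2 : GaloisField p q))‖ *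
          ‖pr.2 (Algebra.norm (ZMod p) (2 : GaloisField p q))‖ *
          ‖jacobiSum (normChar p q pr.1) (normChar p q pr.2)‖ ≤ 1 * 1 * s := by
          gcongr
      _ = s := by ring
  have hcardchars : Fintype.card (MulChar (ZMod p) ℂ) = p - 1 := by
    rw [← Nat.card_eq_fintype_card]
    have := DirichletCharacter.card_eq_totient_of_hasEnoughRootsOfUnity ℂ p
    rw [Nat.totient_prime hp'] at this
    exact this
  have hcarderase : (Finset.univ.erase
      ((1, 1) : MulChar (ZMod p) ℂ × MulChar (ZMod p) ℂ)).card = (p - 1) ^ 2 - 1 := by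
    rw [Finset.card_erase_of_mem (Finset.mem_univ _), Finset.card_univ, Fintype.card_prod,
      hcardchars, sq]
  have hnorm : ‖T - ((p : ℂ) ^ q - 2)‖ ≤ (((p - 1) ^ 2 - 1 : ℕ) : ℝ) * s := by
    rw [hT3, hterm11, add_sub_cancel_left]
    calc ‖∑ pr ∈ (Finset.univ.erase
          ((1, 1) : MulChar (ZMod p) ℂ × MulChar (ZMod p) ℂ)), term pr‖
        ≤ ∑ pr ∈ (Finset.univ.erase
          ((1, 1) : MulChar (ZMod p) ℂ × MulChar (ZMod p) ℂ)), s := norm_sum_le_of_le _ hbound
      _ = (((p - 1) ^ 2 - 1 : ℕ) : ℝ) * s := by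
          rw [Finset.sum_const, hcarderase, nsmul_eq_mul]
  -- pass to the reals
  rw [hT1, Nat.totient_prime hp'] at hnorm
  have hreal : ((((p - 1 : ℕ) : ℂ)) ^ 2 * (Efin.card : ℂ) - ((p : ℂ) ^ q - 2)) =
      (((((p - 1 : ℕ) : ℝ)) ^ 2 * (Efin.card : ℝ) - ((p : ℝ) ^ q - 2) : ℝ) : ℂ) := by
    push_cast
    ring
  rw [hreal, Complex.norm_real, Real.norm_eq_abs] at hnorm
  have hlow := neg_abs_le ((((p - 1 : ℕ) : ℝ)) ^ 2 * (Efin.card : ℝ) - ((p : ℝ) ^ q - 2))
  -- numeric facts
  have hpR : (3 : ℝ) ≤ (p : ℝ) := by exact_mod_cast hp3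
  have hc : (((p - 1 : ℕ) : ℝ)) = (p : ℝ) - 1 := by
    rw [Nat.cast_sub (by omega)]
    simp
  have hc2 : ((((p - 1) ^ 2 - 1 : ℕ)) : ℝ) = ((p : ℝ) - 1) ^ 2 - 1 := by
    have h1 : 1 ≤ (p - 1) ^ 2 := Nat.one_le_pow _ _ (by omega)
    rw [Nat.cast_sub h1]
    push_cast
    rw [hc]
  rw [hc2] at hnorm
  rw [hc] at hnorm hlow
  have hs2 : s ^ 2 = (p : ℝ) ^ q := by
    rw [hs, Real.sq_sqrt (by positivity)]
  have hs1 : (p : ℝ) ^ 2 + 1 ≤ s := by
    rw [hs]
    apply Real.le_sqrt_of_sq_le
    have h5 : (p : ℝ) ^ 5 ≤ (p : ℝ) ^ q := pow_le_pow_right₀ (by linarith) hq5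
    nlinarith [pow_pos (by linarith : (0 : ℝ) < p) 2, pow_pos (by linarith : (0 : ℝ) < p) 4,
      sq_nonneg ((p : ℝ) ^ 2 - 1)]
  by_contra hlt
  have hn : (Efin.card : ℝ) ≤ 1 := by
    have : Efin.card ≤ 1 := by omega
    exact_mod_cast this
  have hkey : ((p : ℝ) ^ 2 + 1) * (2 * (p : ℝ) + 1) ≤ s * (s - ((p : ℝ) - 1) ^ 2 + 1) := by
    apply mul_le_mul hs1 _ (by positivity) (by linarith [sq_nonneg (p : ℝ)])
    nlinarith
  nlinarith [sq_nonneg ((p : ℝ) - 1)]

end Cfsg.Agent.Helper1.NormPair
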