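import Mathlib

set_option autoImplicit false

namespace Cfsg.Agent.Helper1.PIT

open scoped BigOperators

section Basic
variable {M : Type*} [Monoid M]

/-- The additive map out of the integral monoid ring with prescribed values on the basis. -/
noncomputable def bas {X : Type*} [AddCommGroup X] (v : M → X) : MonoidAlgebra ℤ M →+ X :=
  (Finsupp.linearCombination ℤ v).toAddMonoidHom.comp
    (MonoidAlgebra.coeffAddEquiv (R := ℤ) (M := M)).toAddMonoidHom

theorem bas_of {X : Type*} [AddCommGroup X] (v : M → X) (m : M) :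
    bas v (MonoidAlgebra.of ℤ M m) = v m := by
  simp [bas, MonoidAlgebra.of]

theorem addHom_ext_of {X : Type*} [AddCommGroup X] {f g : MonoidAlgebra ℤ M →+ X}
    (h : ∀ m, f (MonoidAlgebra.of ℤ M m) = g (MonoidAlgebra.of ℤ M m)) : f = g := by
  apply MonoidAlgebra.addMonoidHom_ext
  intro m r
  have : MonoidAlgebra.single m r = r • MonoidAlgebra.of ℤ M m := by
    simp [MonoidAlgebra.of, MonoidAlgebra.smul_single]
  rw [this, map_zsmul, map_zsmul, h]

/-- augmentation -/
noncomputable def aug (M : Type*) [Monoid M] : MonoidAlgebra ℤ M →+* ℤ :=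
  (MonoidAlgebra.lift ℤ ℤ M (1 : M →* ℤ)).toRingHom

theorem aug_of (m : M) : aug M (MonoidAlgebra.of ℤ M m) = 1 := by
  simp [aug]

theorem aug_single (m : M) (r : ℤ) : aug M (MonoidAlgebra.single m r) = r := by
  simp [aug]

end Basic

section RelA
variable {G : Type*} [Group G] {n : ℕ}

/-- the basis element of the group ring -/
noncomputable abbrev og (g : G) : MonoidAlgebra ℤ G := MonoidAlgebra.of ℤ G g

/-- The subgroup of the elements `∑ (σ_k - 1) ν_k` with all `ν_k` of augmentation zero. -/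
def I2 (σ : Fin n → G) : AddSubgroup (MonoidAlgebra ℤ G) where
  carrier := {y | ∃ ν : Fin n → MonoidAlgebra ℤ G, (∀ k, aug G (ν k) = 0) ∧
    y = ∑ k, (og (σ k) - 1) * ν k}
  zero_mem' := ⟨0, by simp, by simp⟩
  add_mem' := by
    rintro a b ⟨ν, hν, rfl⟩ ⟨ν', hν', rfl⟩
    exact ⟨ν + ν', fun k => by simp [hν k, hν' k], by simp [mul_add, Finset.sum_add_distrib]⟩
  neg_mem' := by
    rintro a ⟨ν, hν, rfl⟩
    exact ⟨-ν, fun k => by simp [hν k], by simp⟩

/-- `g ↦ g - 1` modulo `I2` is a homomorphism. -/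
noncomputable def phi (σ : Fin n → G) (hσ : Function.Surjective σ) :
    G →* Multiplicative (MonoidAlgebra ℤ G ⧸ I2 σ) where
  toFun g := Multiplicative.ofAdd (QuotientAddGroup.mk (og g - 1))
  map_one' := by
    show Multiplicative.ofAdd (QuotientAddGroup.mk (MonoidAlgebra.of ℤ G 1 - 1)) = 1
    rw [map_one, sub_self]
    rfl
  map_mul' g h := by
    rw [← ofAdd_add, ← QuotientAddGroup.mk_add]
    congr 1
    rw [QuotientAddGroup.eq_iff_sub_mem]
    obtain ⟨k0, hk0⟩ := hσ g
    refine ⟨fun k => if k = k0 then (og h - 1) else 0, ?_, ?_⟩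
    · intro k
      dsimp only
      split_ifs <;> simp [aug_single, og]
    · simp only [mul_ite, mul_zero, Finset.sum_ite_eq', Finset.mem_univ, if_true, hk0]
      simp only [og, map_mul]
      noncomm_ring

theorem relA (σ : Fin n → G) (hσ : Function.Surjective σ) (m : Fin n → ℤ)
    (hm : ∏ k, (Abelianization.of (σ k)) ^ (m k) = 1) :
    ∃ ν : Fin n → MonoidAlgebra ℤ G, (∀ k, aug G (ν k) = 0) ∧
      ∑ k, (og (σ k) - 1) * ((m k : MonoidAlgebra ℤ G) - ν k) = 0 := by
  have h1 := congrArg (Abelianization.lift (phi σ hσ)) hm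
  rw [map_prod, map_one] at h1
  simp only [map_zpow, Abelianization.lift_apply_of] at h1
  have h2 : ∑ k, m k • (og (σ k) - 1) ∈ I2 σ := by
    rw [← QuotientAddGroup.eq_zero_iff]
    have h3 := congrArg Multiplicative.toAdd h1
    rw [toAdd_prod] at h3
    simp only [toAdd_zpow, toAdd_one] at h3
    rw [QuotientAddGroup.mk_sum]
    simpa [phi] using h3
  obtain ⟨ν, hν, h4⟩ := h2
  refine ⟨ν, hν, ?_⟩
  simp only [mul_sub, Finset.sum_sub_distrib]
  rw [← h4, sub_eq_zero]
  refine Finset.sum_congr rfl fun k _ => ?_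
  rw [zsmul_eq_mul, Int.cast_comm]

end RelA

section RelMat
variable {Γ : Type*} [CommGroup Γ]

theorem mem_closure_range {n : ℕ} (γ : Fin n → Γ) {x : Γ}
    (hx : x ∈ Subgroup.closure (Set.range γ)) : ∃ a : Fin n → ℤ, x = ∏ k, γ k ^ a k := by
  induction hx using Subgroup.closure_induction with
  | mem y hy =>
    obtain ⟨k0, rfl⟩ := hy
    refine ⟨fun k => if k = k0 then 1 else 0, ?_⟩
    rw [Finset.prod_eq_single k0]
    · simp
    · intro b _ hb
      simp [hb]
    · simp
  | one => exact ⟨0, by simp⟩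
  | mul y z _ _ hy hz =>
    obtain ⟨a, rfl⟩ := hy
    obtain ⟨b, rfl⟩ := hz
    exact ⟨a + b, by simp [zpow_add, Finset.prod_mul_distrib]⟩
  | inv y _ hy =>
    obtain ⟨a, rfl⟩ := hy
    exact ⟨-a, by simp⟩

/-- A square integer relation matrix with determinant the order of the generated subgroup. -/
theorem relMat [Finite Γ] : ∀ (n : ℕ) (γ : Fin n → Γ),
    ∃ m : Matrix (Fin n) (Fin n) ℤ, (∀ i, ∏ k, γ k ^ (m i k) = 1) ∧
      m.det = (Nat.card (Subgroup.closure (Set.range γ)) : ℤ) := by
  intro n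
  induction n with
  | zero =>
    intro γ
    refine ⟨0, fun i => i.elim0, ?_⟩
    have : Set.range γ = ∅ := Set.range_eq_empty γ
    rw [Matrix.det_isEmpty, this, Subgroup.closure_empty, Subgroup.card_bot]
    simp
  | succ n ih =>
    intro γ
    obtain ⟨m', hm', hdet'⟩ := ih (fun k => γ k.castSucc)
    obtain ⟨A, hA⟩ : ∃ A, A = Subgroup.closure (Set.range (fun k : Fin n => γ k.castSucc)) :=
      ⟨_, rfl⟩
    obtain ⟨B, hB⟩ : ∃ B, B = Subgroup.closure (Set.range γ) := ⟨_, rfl⟩
    have hAB : A ≤ B := by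
      rw [hA, hB]
      apply Subgroup.closure_mono
      rintro _ ⟨k, rfl⟩
      exact ⟨k.castSucc, rfl⟩
    have hgB : γ (Fin.last n) ∈ B := by
      rw [hB]
      exact Subgroup.subset_closure ⟨_, rfl⟩
    have hcard : (Nat.card A : ℤ) * (A.relIndex B : ℤ) = (Nat.card B : ℤ) := by
      have h1 := Subgroup.card_mul_index (A.subgroupOf B)
      have h2 : Nat.card (A.subgroupOf B) = Nat.card A :=
        Nat.card_congr (Subgroup.subgroupOfEquivOfLe hAB).toEquiv
      rw [h2] at h1
      have : A.relIndex B = (A.subgroupOf B).index := rfl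
      rw [this]
      exact_mod_cast h1
    have hpow : γ (Fin.last n) ^ (A.relIndex B) ∈ A := by
      have h1 := Subgroup.pow_index_mem (A.subgroupOf B) (⟨γ (Fin.last n), hgB⟩ : B)
      rw [Subgroup.mem_subgroupOf] at h1
      have h2 : γ (Fin.last n) ^ (A.subgroupOf B).index ∈ A := by simpa using h1
      exact h2
    obtain ⟨a, ha⟩ := mem_closure_range (fun k : Fin n => γ k.castSucc)
      (x := γ (Fin.last n) ^ A.relIndex B) (by rw [← hA]; exact hpow)
    rw [← hA] at hdet'
    refine ⟨Matrix.reindex finSumFinEquiv finSumFinEquiv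
      (Matrix.fromBlocks m' (0 : Matrix (Fin n) (Fin 1) ℤ)
        (Matrix.of fun (_ : Fin 1) (k : Fin n) => -a k)
        (Matrix.of fun (_ : Fin 1) (_ : Fin 1) => (A.relIndex B : ℤ))), ?_, ?_⟩
    · intro i
      obtain ⟨s, rfl⟩ := finSumFinEquiv.surjective i
      rw [← Equiv.prod_comp finSumFinEquiv, Fintype.prod_sum_type]
      rcases s with i' | b
      · simp only [Matrix.reindex_apply, Matrix.submatrix_apply, Equiv.symm_apply_apply,
          Matrix.fromBlocks_apply₁₁, Matrix.fromBlocks_apply₁₂, Matrix.zero_apply, zpow_zero,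
          Finset.prod_const_one, mul_one]
        exact hm' i'
      · simp only [Matrix.reindex_apply, Matrix.submatrix_apply, Equiv.symm_apply_apply,
          Matrix.fromBlocks_apply₂₁, Matrix.fromBlocks_apply₂₂, Matrix.of_apply, zpow_neg,
          Finset.prod_inv_distrib,
          Finset.univ_unique, Finset.prod_singleton]
        have h1 : (finSumFinEquiv (Sum.inr (default : Fin 1)) : Fin (n + 1)) = Fin.last n := by
          ext
          simp
        rw [h1, zpow_natCast, ha]
        exact inv_mul_cancel _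
    · rw [Matrix.det_reindex_self, Matrix.det_fromBlocks_zero₁₂, Matrix.det_fin_one, hdet', hB.symm]
      exact hcard

end RelMat

section Norm
variable {Γ : Type*} [CommGroup Γ] [Finite Γ]

/-- the norm element of the group ring -/
noncomputable def nrm (Γ : Type*) [CommGroup Γ] [Finite Γ] : MonoidAlgebra ℤ Γ :=
  ∑ γ ∈ (Set.finite_univ (α := Γ)).toFinset, MonoidAlgebra.of ℤ Γ γ

theorem of_mul_nrm (g : Γ) : MonoidAlgebra.of ℤ Γ g * nrm Γ = nrm Γ := by
  unfold nrm
  rw [Finset.mul_sum]
  refine Finset.sum_equiv (Equiv.mulLeft g) (by simp) ?_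
  intro i _
  rw [← map_mul]
  rfl

theorem mul_nrm (y : MonoidAlgebra ℤ Γ) : y * nrm Γ = aug Γ y • nrm Γ := by
  induction y using MonoidAlgebra.induction_on with
  | of g => rw [of_mul_nrm, aug_of, one_smul]
  | add x y hx hy => rw [add_mul, hx, hy, map_add, add_smul]
  | smul r x hx => rw [smul_mul_assoc, hx, map_zsmul, smul_eq_mul, mul_smul]

theorem card_smul_eq (z : MonoidAlgebra ℤ Γ)
    (h : ∀ g : Γ, z * (MonoidAlgebra.of ℤ Γ g - 1) = 0) : z * nrm Γ = (Nat.card Γ : ℤ) • z := by
  have h1 : ∀ g : Γ, z * MonoidAlgebra.of ℤ Γ g = z := by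
    intro g
    have := h g
    rw [mul_sub, mul_one, sub_eq_zero] at this
    exact this
  unfold nrm
  rw [Finset.mul_sum, Finset.sum_congr rfl (fun g _ => h1 g), Finset.sum_const]
  have : (Set.finite_univ (α := Γ)).toFinset.card = Nat.card Γ := by
    rw [← Set.ncard_eq_toFinset_card Set.univ Set.finite_univ, Set.ncard_univ]
  rw [this, natCast_zsmul]

theorem eq_nrm (z : MonoidAlgebra ℤ Γ)
    (h : ∀ g : Γ, z * (MonoidAlgebra.of ℤ Γ g - 1) = 0) (haug : aug Γ z = (Nat.card Γ : ℤ)) :
    z = nrm Γ := by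
  have h1 := card_smul_eq z h
  rw [mul_nrm, haug] at h1
  have hc : (Nat.card Γ : ℤ) ≠ 0 := by
    have := Nat.card_pos (α := Γ)
    exact_mod_cast this.ne'
  apply MonoidAlgebra.coeff_injective
  ext d
  have h2 := congrArg (fun y => MonoidAlgebra.coeff y d) h1
  simp only [MonoidAlgebra.coeff_smul, Finsupp.smul_apply, smul_eq_mul] at h2
  exact (mul_left_cancel₀ hc h2).symm

end Norm

section Key
variable {G : Type*} [Group G]

/-- the projection to the group ring of the abelianization -/
noncomputable abbrev pr : MonoidAlgebra ℤ G →+* MonoidAlgebra ℤ (Abelianization G) :=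
  MonoidAlgebra.mapDomainRingHom ℤ (Abelianization.of : G →* Abelianization G)

theorem pr_og (g : G) :
    pr (og g) = MonoidAlgebra.of ℤ (Abelianization G) (Abelianization.of g) := by
  simp [pr, og, MonoidAlgebra.of, MonoidAlgebra.mapDomainRingHom]

theorem aug_pr (y : MonoidAlgebra ℤ G) : aug (Abelianization G) (pr y) = aug G y := by
  induction y using MonoidAlgebra.induction_on with
  | of g => rw [show MonoidAlgebra.of ℤ G g = og g from rfl, pr_og, aug_of, aug_of]
  | add x y hx hy => rw [map_add, map_add, hx, hy, map_add]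
  | smul r x hx => rw [map_zsmul, map_zsmul, hx, map_zsmul]

theorem pr_surjective : Function.Surjective (pr (G := G)) := by
  intro y
  induction y using MonoidAlgebra.induction_on with
  | of g =>
    obtain ⟨g, rfl⟩ := QuotientGroup.mk_surjective g
    exact ⟨og g, pr_og g⟩
  | add x y hx hy =>
    obtain ⟨a, rfl⟩ := hx
    obtain ⟨b, rfl⟩ := hy
    exact ⟨a + b, map_add _ _ _⟩
  | smul r x hx =>
    obtain ⟨a, rfl⟩ := hx
    exact ⟨r • a, map_zsmul _ _ _⟩

theorem key [Finite G] {n : ℕ} (σ : Fin n → G) (hσ : Function.Surjective σ)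
    (S : MonoidAlgebra ℤ G) (hS : pr S = nrm (Abelianization G)) (j : Fin n) :
    ∃ w : Fin n → MonoidAlgebra ℤ G, (∀ k, pr (w k) = 0) ∧
      (og (σ j) - 1) * S = - ∑ k, (og (σ k) - 1) * w k := by
  classical
  obtain ⟨m, hrow, hdet⟩ := relMat n (fun k => Abelianization.of (σ k))
  have hcl : Subgroup.closure (Set.range fun k => Abelianization.of (σ k)) = ⊤ := by
    rw [eq_top_iff]
    intro x _
    obtain ⟨g, rfl⟩ := QuotientGroup.mk_surjective x
    obtain ⟨k, rfl⟩ := hσ g
    exact Subgroup.subset_closure ⟨k, rfl⟩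
  rw [hcl, Subgroup.card_top] at hdet
  choose ν hν0 hν using fun i => relA σ hσ (m i) (hrow i)
  obtain ⟨Λ, hΛ⟩ : ∃ Λ : Matrix (Fin n) (Fin n) (MonoidAlgebra ℤ G),
      ∀ i k, Λ i k = (m i k : MonoidAlgebra ℤ G) - ν i k :=
    ⟨Matrix.of fun i k => (m i k : MonoidAlgebra ℤ G) - ν i k, fun i k => rfl⟩
  obtain ⟨Lb, hLb⟩ : ∃ Lb : Matrix (Fin n) (Fin n) (MonoidAlgebra ℤ (Abelianization G)),
      ∀ i k, Lb i k = pr (Λ i k) := ⟨Matrix.of fun i k => pr (Λ i k), fun i k => rfl⟩
  have hrel : ∀ i, ∑ k, (og (σ k) - 1) * Λ i k = 0 := by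
    intro i
    simp only [hΛ]
    exact hν i
  obtain ⟨v, hv⟩ : ∃ v : Fin n → MonoidAlgebra ℤ (Abelianization G),
      ∀ k, v k = MonoidAlgebra.of ℤ (Abelianization G) (Abelianization.of (σ k)) - 1 :=
    ⟨_, fun k => rfl⟩
  have hmv : Lb.mulVec v = 0 := by
    funext i
    show ∑ k, Lb i k * v k = 0
    have h := congrArg pr (hrel i)
    rw [map_sum, map_zero] at h
    rw [← h]
    refine Finset.sum_congr rfl fun k _ => ?_
    rw [map_mul, map_sub, map_one, pr_og, hLb, hv, mul_comm]
  have hz : ∀ k, Lb.det * v k = 0 := by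
    intro k
    have h := congrArg (Matrix.mulVec (Matrix.adjugate Lb)) hmv
    rw [Matrix.mulVec_mulVec, Matrix.adjugate_mul, Matrix.mulVec_zero, Matrix.smul_mulVec,
      Matrix.one_mulVec] at h
    have h2 := congrFun h k
    simpa using h2
  have haug : aug (Abelianization G) Lb.det = (Nat.card (Abelianization G) : ℤ) := by
    rw [RingHom.map_det, ← hdet]
    congr 1
    ext i k
    rw [RingHom.mapMatrix_apply, Matrix.map_apply, hLb, aug_pr, hΛ, map_sub, hν0, sub_zero,
      map_intCast]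
    simp
  have hzN : Lb.det = nrm (Abelianization G) := by
    apply eq_nrm _ _ haug
    intro g
    obtain ⟨g, rfl⟩ := QuotientGroup.mk_surjective g
    obtain ⟨k, rfl⟩ := hσ g
    have := hz k
    rw [hv] at this
    exact this
  have hC : Lb.transpose * Matrix.adjugate Lb.transpose = Lb.det • (1 : Matrix _ _ _) := by
    rw [Matrix.mul_adjugate, Matrix.det_transpose]
  choose c hc using fun i j => pr_surjective (Matrix.adjugate Lb.transpose i j)
  refine ⟨fun k => ∑ i, Λ i k * c i j - (if k = j then S else 0), ?_, ?_⟩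
  · intro k
    rw [map_sub, map_sum]
    have h1 : ∑ i, pr (Λ i k * c i j) = (Lb.transpose * Matrix.adjugate Lb.transpose) k j := by
      rw [Matrix.mul_apply]
      refine Finset.sum_congr rfl fun i _ => ?_
      rw [map_mul, hc, Matrix.transpose_apply, hLb]
    rw [h1, hC, hzN]
    by_cases hkj : k = j
    · simp [hkj, hS]
    · simp [hkj]
  · have h1 : ∑ k, (og (σ k) - 1) * (∑ i, Λ i k * c i j - (if k = j then S else 0))
        = ∑ k, (og (σ k) - 1) * (∑ i, Λ i k * c i j) - (og (σ j) - 1) * S := by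
      simp only [mul_sub, Finset.sum_sub_distrib, mul_ite, mul_zero, Finset.sum_ite_eq',
        Finset.mem_univ, if_true]
    have h2 : ∑ k, (og (σ k) - 1) * (∑ i, Λ i k * c i j) = 0 := by
      simp only [Finset.mul_sum]
      rw [Finset.sum_comm]
      have : ∀ i, ∑ k, (og (σ k) - 1) * (Λ i k * c i j) = 0 := by
        intro i
        have h3 := congrArg (fun y => y * c i j) (hrel i)
        simp only [Finset.sum_mul, zero_mul, mul_assoc] at h3
        exact h3
      exact Finset.sum_eq_zero fun i _ => this i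
    rw [h1, h2]
    simp

end Key

section Final
variable {G : Type*} [Group G]

open Classical in
/-- the class of an element of the commutator subgroup in its abelianization (else zero) -/
noncomputable def cls (x : G) : Additive (Abelianization ↥(commutator G)) :=
  if h : x ∈ commutator G then Additive.ofMul (Abelianization.of ⟨x, h⟩) else 0

theorem cls_of_mem (x : G) (h : x ∈ commutator G) :
    cls x = Additive.ofMul (Abelianization.of ⟨x, h⟩) := by
  unfold cls
  rw [dif_pos h]

theorem cls_one : cls (1 : G) = 0 := by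
  rw [cls_of_mem 1 (one_mem _)]
  have : (⟨1, one_mem _⟩ : commutator G) = 1 := rfl
  rw [this, map_one]
  rfl

theorem cls_mul (x y : G) (hx : x ∈ commutator G) (hy : y ∈ commutator G) :
    cls (x * y) = cls x + cls y := by
  rw [cls_of_mem _ (mul_mem hx hy), cls_of_mem _ hx, cls_of_mem _ hy, ← ofMul_mul, ← map_mul]
  rfl

theorem pit [Finite G] (σ : G) :
    MonoidHom.transfer
      (Abelianization.of : ↥(commutator G) →* Abelianization ↥(commutator G)) σ = 1 := by
  classical
  obtain ⟨T⟩ : Nonempty (commutator G).LeftTransversal := ⟨default⟩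
  obtain ⟨t, ht⟩ : ∃ t : G ⧸ commutator G → G, ∀ q, t q = (T.2.leftQuotientEquiv q : G) :=
    ⟨_, fun q => rfl⟩
  have htq : ∀ q : G ⧸ commutator G, (QuotientGroup.mk (t q) : G ⧸ commutator G) = q := by
    intro q
    rw [ht]
    exact Subgroup.IsComplement.quotientGroupMk_leftQuotientEquiv T.2 q
  obtain ⟨ρ, hρ⟩ : ∃ ρ : G → G, ∀ g, ρ g = t (QuotientGroup.mk g) := ⟨_, fun g => rfl⟩
  have hρ1 : ∀ g, (ρ g)⁻¹ * g ∈ commutator G := by
    intro g
    rw [← QuotientGroup.eq, hρ, htq]
  have hρ2 : ∀ g h, g⁻¹ * h ∈ commutator G → ρ g = ρ h := by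
    intro g h hgh
    rw [hρ, hρ, QuotientGroup.eq.mpr hgh]
  obtain ⟨ψ, hψ⟩ : ∃ ψ : MonoidAlgebra ℤ G →+ Additive (Abelianization ↥(commutator G)),
      ∀ g, ψ (og g) = cls ((ρ g)⁻¹ * g) :=
    ⟨bas fun g => cls ((ρ g)⁻¹ * g), fun g => bas_of _ g⟩
  have hK : ∀ (s : G) (κ : MonoidAlgebra ℤ G), pr κ = 0 → ψ ((og s - 1) * κ) = 0 := by
    intro s κ hκ
    obtain ⟨Θ, hΘ⟩ : ∃ Θ : MonoidAlgebra ℤ G →+ MonoidAlgebra ℤ G,
        (∀ g, Θ (og g) = og (ρ g)) ∧ (∀ y, pr y = 0 → Θ y = 0) := by
      refine ⟨(bas fun γ : Abelianization G => og (t γ)).comp (pr (G := G)).toAddMonoidHom, ?_, ?_⟩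
      · intro g
        show bas _ (pr (og g)) = _
        rw [pr_og, bas_of, hρ]
        rfl
      · intro y hy
        show bas _ (pr y) = 0
        rw [hy, map_zero]
    have hF : ψ.comp ((AddMonoidHom.mulLeft (og s - 1)).comp (AddMonoidHom.id _ - Θ)) = 0 := by
      apply addHom_ext_of
      intro g
      show ψ ((og s - 1) * (og g - Θ (og g))) = 0
      rw [hΘ.1]
      have e1 : (og s - 1) * (og g - og (ρ g)) = og (s * g) - og (s * ρ g) - og g + og (ρ g) := by
        simp only [og, map_mul]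
        noncomm_ring
      rw [e1, map_add, map_sub, map_sub, hψ, hψ, hψ, hψ]
      have r1 : ρ (s * g) = ρ (s * ρ g) := hρ2 _ _ (by
        have h2 : (s * g)⁻¹ * (s * ρ g) = ((ρ g)⁻¹ * g)⁻¹ := by group
        rw [h2]
        exact inv_mem (hρ1 g))
      have r2 : ρ (ρ g) = ρ g := hρ2 _ _ (hρ1 g)
      rw [r2, inv_mul_cancel, cls_one, add_zero, r1]
      have h3 : (ρ (s * ρ g))⁻¹ * (s * g) = ((ρ (s * ρ g))⁻¹ * (s * ρ g)) * ((ρ g)⁻¹ * g) := by
        group
      rw [h3, cls_mul _ _ (hρ1 _) (hρ1 _)]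
      abel
    have h4 : ψ ((og s - 1) * (κ - Θ κ)) = 0 := DFunLike.congr_fun hF κ
    rw [hΘ.2 κ hκ, sub_zero] at h4
    exact h4
  obtain ⟨S, hSdef⟩ : ∃ S : MonoidAlgebra ℤ G,
      S = ∑ q ∈ (Set.finite_univ (α := Abelianization G)).toFinset, og (t q) := ⟨_, rfl⟩
  have hS : pr S = nrm (Abelianization G) := by
    rw [hSdef, map_sum]
    unfold nrm
    refine Finset.sum_congr rfl fun q _ => ?_
    rw [pr_og]
    congr 1
    exact htq q
  have htr : Additive.ofMul (MonoidHom.transfer
      (Abelianization.of : ↥(commutator G) →* Abelianization ↥(commutator G)) σ)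
        = ψ ((og σ - 1) * S) := by
    rw [MonoidHom.transfer_def _ T σ]
    unfold Subgroup.leftTransversals.diff
    simp only []
    let _ : Fintype (G ⧸ commutator G) := (commutator G).fintypeQuotientOfFiniteIndex
    have hF : (Set.finite_univ (α := Abelianization G)).toFinset
        = (Finset.univ : Finset (G ⧸ commutator G)) := by
      ext q
      simp only [Set.Finite.mem_toFinset, Set.mem_univ, true_iff]
      exact @Finset.mem_univ (G ⧸ commutator G) _ q
    rw [ofMul_prod]
    trans (∑ q : G ⧸ commutator G, cls ((t q)⁻¹ * (σ * t (σ⁻¹ • q))))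
    · refine Finset.sum_congr rfl fun q _ => ?_
      rw [← cls_of_mem, Subgroup.smul_apply_eq_smul_apply_inv_smul, ← ht, ← ht]
      rfl
    · rw [hSdef, Finset.mul_sum, map_sum, hF]
      have e2 : ∀ q : G ⧸ commutator G,
          ψ ((og σ - 1) * og (t q)) = cls ((t (σ • q))⁻¹ * (σ * t q)) := by
        intro q
        have h1 : (og σ - 1) * og (t q) = og (σ * t q) - og (t q) := by
          simp only [og, map_mul]
          noncomm_ring
        rw [h1, map_sub, hψ, hψ]
        have r1 : ρ (t q) = t q := by rw [hρ, htq]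
        have r2 : ρ (σ * t q) = t (σ • q) := by
          rw [hρ]
          congr 1
          conv_rhs => rw [← htq q]
          rfl
        rw [r1, r2, inv_mul_cancel, cls_one, sub_zero]
      have e3 : ∑ x : G ⧸ commutator G, ψ ((og σ - 1) * og (t x))
          = ∑ x : G ⧸ commutator G, cls ((t (σ • x))⁻¹ * (σ * t x)) :=
        Finset.sum_congr rfl fun q _ => e2 q
      refine Eq.trans ?_ e3.symm
      exact (Fintype.sum_equiv (MulAction.toPerm σ) _ _ (fun q => by simp)).symm
  have hfin : ψ ((og σ - 1) * S) = 0 := by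
    obtain ⟨e⟩ : Nonempty (G ≃ Fin (Nat.card G)) := ⟨Finite.equivFin G⟩
    obtain ⟨w, hw0, hw⟩ := key (fun k => e.symm k) e.symm.surjective S hS (e σ)
    simp only [Equiv.symm_apply_apply] at hw
    rw [hw, map_neg, map_sum, neg_eq_zero]
    exact Finset.sum_eq_zero fun k _ => hK _ _ (hw0 k)
  rw [hfin] at htr
  exact ofMul_eq_zero.mp htr

end Final

end Cfsg.Agent.Helper1.PIT
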