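import Mathlib
import Cfsg.Agent.Helper1.QdChar
import Cfsg.Prelude.Def_LocalEven

/-!
Helper library (seat helper1): in `Qd(p)` no nontrivial characteristic subgroup of a Sylow
`p`-subgroup controls strong fusion.
-/

set_option autoImplicit false

namespace Cfsg.Agent.Helper1

namespace Qd

variable {p : ℕ}

/-- a subgroup whose normalizer lies in the normalizer of a Sylow `p`-subgroup of `Qd(p)` does not
control strong fusion -/
theorem not_controls_of_normalizer_le [Fact p.Prime] (S : Sylow p ↥(Cfsg.qd p))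
    (U : Subgroup ↥(Cfsg.qd p))
    (hN : Subgroup.normalizer (U : Set ↥(Cfsg.qd p)) ≤
      Subgroup.normalizer ((S : Subgroup ↥(Cfsg.qd p)) : Set ↥(Cfsg.qd p))) :
    ¬ Cfsg.ControlsStrongFusion p U := by
  have hp : p.Prime := Fact.out
  have : NeZero p := ⟨hp.ne_zero⟩
  have : Finite ↥(Cfsg.qd p) := inferInstance
  rintro ⟨T2, -, hctl⟩
  obtain ⟨e, he1, he2⟩ := coord S
  have hVp : IsPGroup p (V p) := by
    have h1 : IsPGroup p ((heisSylow p : Sylow p ↥(Cfsg.qd p)) : Subgroup ↥(Cfsg.qd p)) :=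
      (heisSylow p).isPGroup'
    exact h1.to_le V_le_range
  have hVT : V p ≤ (T2 : Subgroup ↥(Cfsg.qd p)) := hVp.le_sylow_of_normal T2
  have hne : Subgroup.normalizer ((S : Subgroup ↥(Cfsg.qd p)) : Set ↥(Cfsg.qd p)) ≠ ⊤ := by
    intro htop
    have hn : (S : Subgroup ↥(Cfsg.qd p)).Normal := Subgroup.normalizer_eq_top_iff.mp htop
    obtain ⟨g, hg⟩ := MulAction.exists_smul_eq ↥(Cfsg.qd p) S (heisSylow p)
    have h1 : g • S = S := Sylow.smul_eq_of_normal
    rw [h1] at hg
    apply range_not_normal (p := p)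
    rw [← heisSylow_coe, ← hg]
    exact hn
  obtain ⟨g, hg⟩ : ∃ g : ↥(Cfsg.qd p),
      g ∉ Subgroup.normalizer ((S : Subgroup ↥(Cfsg.qd p)) : Set ↥(Cfsg.qd p)) := by
    by_contra h
    push Not at h
    exact hne (eq_top_iff.mpr fun x _ => h x)
  obtain ⟨z, hz⟩ : ∃ z : ↥(Cfsg.qd p),
      z = ((e HeisP.z : ↥(S : Subgroup ↥(Cfsg.qd p))) : ↥(Cfsg.qd p)) := ⟨_, rfl⟩
  have hzV : z ∈ V p := by
    rw [hz]
    exact (he1 _).mpr rfl
  have hA : ({z} : Set ↥(Cfsg.qd p)) ⊆ ((T2 : Subgroup ↥(Cfsg.qd p)) : Set ↥(Cfsg.qd p)) := by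
    rintro _ rfl
    exact hVT hzV
  obtain ⟨-, h2⟩ := hctl {z} hA
  obtain ⟨x, hx, hxz⟩ := h2 g (by
    rintro _ ⟨a, rfl, rfl⟩
    exact hVT ((V_normal (p := p)).conj_mem _ hzV g))
  have h3 := hxz z rfl
  have h4 : (x⁻¹ * g) * z = z * (x⁻¹ * g) := by
    have e1 : (x⁻¹ * g) * z = x⁻¹ * (g * z * g⁻¹) * g := by group
    rw [e1, h3]; group
  rw [hz] at h4
  have h5 := he2 _ h4
  have hxN := hN hx
  have h6 := mul_mem hxN (Subgroup.le_normalizer h5)
  rw [mul_inv_cancel_left] at h6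
  exact hg h6

/-- no nontrivial characteristic subgroup of a Sylow `p`-subgroup of `Qd(p)` controls strong
fusion -/
theorem not_controls_of_char [Fact p.Prime] (S : Sylow p ↥(Cfsg.qd p))
    (U : Subgroup ↥(Cfsg.qd p)) (hUS : U ≤ (S : Subgroup ↥(Cfsg.qd p))) (hne : U ≠ ⊥)
    (hchar : (U.subgroupOf (S : Subgroup ↥(Cfsg.qd p))).Characteristic) :
    ¬ Cfsg.ControlsStrongFusion p U := by
  apply not_controls_of_normalizer_le S U
  have hne' : U.subgroupOf (S : Subgroup ↥(Cfsg.qd p)) ≠ ⊥ := by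
    intro h0
    apply hne
    rw [← Subgroup.map_subgroupOf_eq_of_le hUS, h0, Subgroup.map_bot]
  have h := (char_normalizer S (U.subgroupOf (S : Subgroup ↥(Cfsg.qd p))) hne' hchar).1
  rw [Subgroup.map_subgroupOf_eq_of_le hUS] at h
  exact h.le

/-- transport of characteristic subgroups along an isomorphism -/
theorem char_map_equiv {A B : Type*} [Group A] [Group B] (φ : A ≃* B) (K : Subgroup A)
    (hK : K.Characteristic) : (K.map φ.toMonoidHom).Characteristic := by
  rw [Subgroup.characteristic_iff_comap_eq]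
  intro ψ
  ext x
  have h1 := hK.fixed (φ.trans (ψ.trans φ.symm))
  have key : ∀ y : B, y ∈ K.map φ.toMonoidHom ↔ φ.symm y ∈ K := by
    intro y
    constructor
    · rintro ⟨a, ha, rfl⟩
      show φ.symm (φ a) ∈ K
      rw [φ.symm_apply_apply]; exact ha
    · intro hy
      exact ⟨φ.symm y, hy, φ.apply_symm_apply y⟩
  rw [Subgroup.mem_comap]
  show ψ x ∈ _ ↔ _
  rw [key, key]
  constructor
  · intro hx
    have h2 : φ.symm x ∈ K.comap (φ.trans (ψ.trans φ.symm)).toMonoidHom := by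
      show φ.symm (ψ (φ (φ.symm x))) ∈ K
      rw [φ.apply_symm_apply]; exact hx
    rw [h1] at h2; exact h2
  · intro hx
    have h2 : φ.symm x ∈ K.comap (φ.trans (ψ.trans φ.symm)).toMonoidHom := by rw [h1]; exact hx
    have h3 : φ.symm (ψ (φ (φ.symm x))) ∈ K := h2
    rw [φ.apply_symm_apply] at h3; exact h3

/-- in a group isomorphic to `Qd(p)`, no nontrivial characteristic subgroup of a Sylow
`p`-subgroup controls strong fusion -/
theorem not_controls_of_equiv [Fact p.Prime] {Y : Type*} [Group Y] (e : Y ≃* ↥(Cfsg.qd p))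
    (T : Sylow p Y) (U : Subgroup Y) (hUT : U ≤ (T : Subgroup Y)) (hne : U ≠ ⊥)
    (hchar : (U.subgroupOf (T : Subgroup Y)).Characteristic) :
    ¬ Cfsg.ControlsStrongFusion p U := by
  have hp : p.Prime := Fact.out
  have : NeZero p := ⟨hp.ne_zero⟩
  have : Finite ↥(Cfsg.qd p) := inferInstance
  have : Finite Y := Finite.of_equiv _ e.symm.toEquiv
  have hcardY : Nat.card Y = Nat.card ↥(Cfsg.qd p) := Nat.card_congr e.toEquiv
  have hsyl : ∀ T' : Sylow p Y, Nat.card ((T' : Subgroup Y).map e.toMonoidHom) =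
      p ^ (Nat.card ↥(Cfsg.qd p)).factorization p := by
    intro T'
    rw [Subgroup.card_map_of_injective e.injective, ← hcardY]
    exact T'.card_eq_multiplicity
  intro hc
  let S : Sylow p ↥(Cfsg.qd p) := Sylow.ofCard ((T : Subgroup Y).map e.toMonoidHom) (hsyl T)
  have hS : (S : Subgroup ↥(Cfsg.qd p)) = (T : Subgroup Y).map e.toMonoidHom := rfl
  apply not_controls_of_char S (U.map e.toMonoidHom) (Subgroup.map_mono hUT)
  · intro h0
    apply hne
    rw [eq_bot_iff]
    intro u hu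
    have h1 : e u ∈ U.map e.toMonoidHom := ⟨u, hu, rfl⟩
    rw [h0, Subgroup.mem_bot] at h1
    rw [Subgroup.mem_bot]
    exact (MulEquiv.map_eq_one_iff e).mp h1
  · -- characteristic
    let ε : ↥(T : Subgroup Y) ≃* ↥((T : Subgroup Y).map e.toMonoidHom) := e.subgroupMap (T : Subgroup Y)
    have h1 := char_map_equiv ε _ hchar
    have h2 : (U.subgroupOf (T : Subgroup Y)).map ε.toMonoidHom =
        (U.map e.toMonoidHom).subgroupOf ((T : Subgroup Y).map e.toMonoidHom) := by
      ext ⟨y, hy⟩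
      rw [Subgroup.mem_subgroupOf]
      constructor
      · rintro ⟨⟨t, ht⟩, htU, hty⟩
        have h3 : e t = y := congrArg Subtype.val hty
        exact ⟨t, Subgroup.mem_subgroupOf.mp htU, h3⟩
      · rintro ⟨u, hu, huy⟩
        refine ⟨⟨u, hUT hu⟩, Subgroup.mem_subgroupOf.mpr hu, ?_⟩
        exact Subtype.ext huy
    rw [h2] at h1
    exact h1
  · -- transport of control
    obtain ⟨T2, hUT2, h⟩ := hc
    let S2 : Sylow p ↥(Cfsg.qd p) := Sylow.ofCard ((T2 : Subgroup Y).map e.toMonoidHom) (hsyl T2)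
    refine ⟨S2, Subgroup.map_mono hUT2, fun A hA => ⟨hA, fun g hg => ?_⟩⟩
    have hA' : e.symm '' A ⊆ ((T2 : Subgroup Y) : Set Y) := by
      rintro _ ⟨a, ha, rfl⟩
      obtain ⟨t, ht, hta⟩ := hA ha
      have : e.symm a = t := by rw [← hta]; exact e.symm_apply_apply t
      rw [this]; exact ht
    obtain ⟨x, hx, hxa⟩ := (h (e.symm '' A) hA').2 (e.symm g) (by
      rintro _ ⟨_, ⟨a, ha, rfl⟩, rfl⟩
      obtain ⟨t, ht, hta⟩ := hg ⟨a, ha, rfl⟩
      have hta' : e t = g * a * g⁻¹ := hta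
      have : e.symm g * e.symm a * (e.symm g)⁻¹ = t := by
        rw [← map_inv, ← map_mul, ← map_mul, ← hta']
        exact e.symm_apply_apply t
      show e.symm g * e.symm a * (e.symm g)⁻¹ ∈ _
      rw [this]; exact ht)
    refine ⟨e x, ?_, fun a ha => ?_⟩
    · have h3 := Subgroup.map_equiv_normalizer_eq U e
      have h4 : e x ∈ (Subgroup.normalizer (U : Set Y)).map e.toMonoidHom := ⟨x, hx, rfl⟩
      rw [h3] at h4
      exact h4
    · have h3 := hxa (e.symm a) ⟨a, ha, rfl⟩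
      have h4 := congrArg e h3
      simp only [map_mul, map_inv, e.apply_symm_apply] at h4
      exact h4

end Qd

end Cfsg.Agent.Helper1
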