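import Mathlib
import Cfsg.Prelude.Def_LocalEven
import Cfsg.Prelude.Def_Solvable

/-!
Helper library (seat helper1): the group `Qd` over a finite field: membership, the block
homomorphism onto `SL₂(F)`, the translation subgroup and the block-diagonal complement.
-/

set_option autoImplicit false

namespace Cfsg.Agent.Helper1.QdO

open Matrix

variable {F : Type*} [Field F]

/-- local abbreviation -/
abbrev SL3 (F : Type*) [Field F] := Matrix.SpecialLinearGroup (Fin 3) F

/-- the affine subgroup as an explicit subgroup -/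
def QF (F : Type*) [Field F] : Subgroup (SL3 F) where
  carrier := {M | (M : Matrix (Fin 3) (Fin 3) F) 2 0 = 0 ∧
    (M : Matrix (Fin 3) (Fin 3) F) 2 1 = 0 ∧ (M : Matrix (Fin 3) (Fin 3) F) 2 2 = 1}
  mul_mem' := by
    rintro M N ⟨h0, h1, h2⟩ ⟨k0, k1, k2⟩
    refine ⟨?_, ?_, ?_⟩
    · rw [Matrix.SpecialLinearGroup.coe_mul, Matrix.mul_apply, Fin.sum_univ_three, h0, h1, h2, k0]
      simp
    · rw [Matrix.SpecialLinearGroup.coe_mul, Matrix.mul_apply, Fin.sum_univ_three, h0, h1, h2, k1]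
      simp
    · rw [Matrix.SpecialLinearGroup.coe_mul, Matrix.mul_apply, Fin.sum_univ_three, h0, h1, h2, k2]
      simp
  one_mem' := by
    refine ⟨?_, ?_, ?_⟩ <;> simp
  inv_mem' := by
    rintro M ⟨h0, h1, h2⟩
    have hmul : (M * M⁻¹ : SL3 F) = 1 := mul_inv_cancel M
    have key : ∀ j : Fin 3, ((M⁻¹ : SL3 F) : Matrix (Fin 3) (Fin 3) F) 2 j =
        (1 : Matrix (Fin 3) (Fin 3) F) 2 j := by
      intro j
      have h := congrArg (fun X : SL3 F => (X : Matrix (Fin 3) (Fin 3) F) 2 j) hmul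
      simp only [Matrix.SpecialLinearGroup.coe_mul, Matrix.mul_apply, Fin.sum_univ_three, h0, h1,
        h2, Matrix.SpecialLinearGroup.coe_one] at h
      simpa using h
    refine ⟨?_, ?_, ?_⟩
    · rw [key]; simp
    · rw [key]; simp
    · rw [key]; simp

theorem qdOver_eq (F : Type*) [Field F] : Cfsg.qdOver F = QF F := by
  unfold Cfsg.qdOver
  exact Subgroup.closure_eq (QF F)

theorem mem_qdOver {M : SL3 F} : M ∈ Cfsg.qdOver F ↔ (M : Matrix (Fin 3) (Fin 3) F) 2 0 = 0 ∧
    (M : Matrix (Fin 3) (Fin 3) F) 2 1 = 0 ∧ (M : Matrix (Fin 3) (Fin 3) F) 2 2 = 1 := by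
  rw [qdOver_eq]; rfl

/-- the matrix with block `A` and translation `v` -/
def mk (A : Matrix (Fin 2) (Fin 2) F) (v : Fin 2 → F) :
    Matrix (Fin 3) (Fin 3) F :=
  !![A 0 0, A 0 1, v 0; A 1 0, A 1 1, v 1; 0, 0, 1]

theorem det_mk (A : Matrix (Fin 2) (Fin 2) F) (v : Fin 2 → F) :
    (mk A v).det = A.det := by
  rw [Matrix.det_fin_three, Matrix.det_fin_two]
  simp [mk]

/-- the upper left block -/
def blk (M : Matrix (Fin 3) (Fin 3) F) : Matrix (Fin 2) (Fin 2) F :=
  !![M 0 0, M 0 1; M 1 0, M 1 1]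

/-- the translation part -/
def tr (M : Matrix (Fin 3) (Fin 3) F) : Fin 2 → F := ![M 0 2, M 1 2]

theorem eq_mk {M : SL3 F} (hM : M ∈ Cfsg.qdOver F) :
    (M : Matrix (Fin 3) (Fin 3) F) = mk (blk (M : Matrix (Fin 3) (Fin 3) F))
      (tr (M : Matrix (Fin 3) (Fin 3) F)) := by
  obtain ⟨h0, h1, h2⟩ := mem_qdOver.mp hM
  ext i j
  fin_cases i <;> fin_cases j <;> simp [mk, blk, tr, h0, h1, h2]

theorem blk_mk (A : Matrix (Fin 2) (Fin 2) F) (v : Fin 2 → F) : blk (mk A v) = A := by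
  ext i j
  fin_cases i <;> fin_cases j <;> simp [mk, blk]

theorem tr_mk (A : Matrix (Fin 2) (Fin 2) F) (v : Fin 2 → F) : tr (mk A v) = v := by
  ext i
  fin_cases i <;> simp [mk, tr]

theorem mk_mul (A B : Matrix (Fin 2) (Fin 2) F) (v w : Fin 2 → F) :
    mk A v * mk B w = mk (A * B) (A.mulVec w + v) := by
  ext i j
  fin_cases i <;> fin_cases j <;>
    simp [mk, Matrix.mul_apply, Fin.sum_univ_three, Fin.sum_univ_two]

theorem mk_one : mk (1 : Matrix (Fin 2) (Fin 2) F) 0 = 1 := by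
  ext i j
  fin_cases i <;> fin_cases j <;> simp [mk]

theorem mk_inj {A B : Matrix (Fin 2) (Fin 2) F} {v w : Fin 2 → F} (h : mk A v = mk B w) :
    A = B ∧ v = w := by
  have h1 := congrArg blk h
  have h2 := congrArg tr h
  rw [blk_mk, blk_mk] at h1
  rw [tr_mk, tr_mk] at h2
  exact ⟨h1, h2⟩

theorem det_blk {M : SL3 F} (hM : M ∈ Cfsg.qdOver F) :
    (blk (M : Matrix (Fin 3) (Fin 3) F)).det = 1 := by
  rw [← det_mk _ (tr (M : Matrix (Fin 3) (Fin 3) F)), ← eq_mk hM]
  exact M.2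

theorem blk_mul {M N : SL3 F} (hM : M ∈ Cfsg.qdOver F) (hN : N ∈ Cfsg.qdOver F) :
    blk ((M * N : SL3 F) : Matrix (Fin 3) (Fin 3) F) =
      blk (M : Matrix (Fin 3) (Fin 3) F) * blk (N : Matrix (Fin 3) (Fin 3) F) := by
  have h : ((M * N : SL3 F) : Matrix (Fin 3) (Fin 3) F) =
      mk (blk (M : Matrix (Fin 3) (Fin 3) F) * blk (N : Matrix (Fin 3) (Fin 3) F))
        ((blk (M : Matrix (Fin 3) (Fin 3) F)).mulVec (tr (N : Matrix (Fin 3) (Fin 3) F)) +
          tr (M : Matrix (Fin 3) (Fin 3) F)) := by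
    rw [Matrix.SpecialLinearGroup.coe_mul, ← mk_mul, ← eq_mk hM, ← eq_mk hN]
  rw [h, blk_mk]

theorem tr_mul {M N : SL3 F} (hM : M ∈ Cfsg.qdOver F) (hN : N ∈ Cfsg.qdOver F) :
    tr ((M * N : SL3 F) : Matrix (Fin 3) (Fin 3) F) =
      (blk (M : Matrix (Fin 3) (Fin 3) F)).mulVec (tr (N : Matrix (Fin 3) (Fin 3) F)) +
          tr (M : Matrix (Fin 3) (Fin 3) F) := by
  have h : ((M * N : SL3 F) : Matrix (Fin 3) (Fin 3) F) =
      mk (blk (M : Matrix (Fin 3) (Fin 3) F) * blk (N : Matrix (Fin 3) (Fin 3) F))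
        ((blk (M : Matrix (Fin 3) (Fin 3) F)).mulVec (tr (N : Matrix (Fin 3) (Fin 3) F)) +
          tr (M : Matrix (Fin 3) (Fin 3) F)) := by
    rw [Matrix.SpecialLinearGroup.coe_mul, ← mk_mul, ← eq_mk hM, ← eq_mk hN]
  rw [h, tr_mk]

/-- the element of `Qd` with block `A` and translation `v` -/
def mkQ (A : Matrix.SpecialLinearGroup (Fin 2) F) (v : Fin 2 → F) : ↥(Cfsg.qdOver F) :=
  ⟨⟨mk A.1 v, by rw [det_mk]; exact A.2⟩, by
    refine mem_qdOver.mpr ⟨?_, ?_, ?_⟩ <;> simp [mk]⟩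

theorem mkQ_coe (A : Matrix.SpecialLinearGroup (Fin 2) F) (v : Fin 2 → F) :
    (((mkQ A v : ↥(Cfsg.qdOver F)) : SL3 F) : Matrix (Fin 3) (Fin 3) F) = mk A.1 v := rfl

/-- the block homomorphism -/
def blockHom (F : Type*) [Field F] : ↥(Cfsg.qdOver F) →* Matrix.SpecialLinearGroup (Fin 2) F where
  toFun M := ⟨blk (M.1 : Matrix (Fin 3) (Fin 3) F), det_blk M.2⟩
  map_one' := by
    apply Subtype.ext
    show blk ((1 : SL3 F) : Matrix (Fin 3) (Fin 3) F) = 1
    rw [Matrix.SpecialLinearGroup.coe_one, ← mk_one, blk_mk]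
  map_mul' M N := by
    apply Subtype.ext
    exact blk_mul M.2 N.2

theorem blockHom_coe (M : ↥(Cfsg.qdOver F)) :
    ((blockHom F M : Matrix.SpecialLinearGroup (Fin 2) F) : Matrix (Fin 2) (Fin 2) F) =
      blk (M.1 : Matrix (Fin 3) (Fin 3) F) := rfl

theorem blockHom_mkQ (A : Matrix.SpecialLinearGroup (Fin 2) F) (v : Fin 2 → F) :
    blockHom F (mkQ A v) = A := by
  apply Subtype.ext
  rw [blockHom_coe, mkQ_coe, blk_mk]

theorem blockHom_surjective : Function.Surjective (blockHom F) :=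
  fun A => ⟨mkQ A 0, blockHom_mkQ A 0⟩

/-- translation part as a function on `Qd` -/
def trQ (M : ↥(Cfsg.qdOver F)) : Fin 2 → F := tr (M.1 : Matrix (Fin 3) (Fin 3) F)

theorem trQ_mkQ (A : Matrix.SpecialLinearGroup (Fin 2) F) (v : Fin 2 → F) :
    trQ (mkQ A v) = v := by
  unfold trQ
  rw [mkQ_coe, tr_mk]

theorem trQ_mul (M N : ↥(Cfsg.qdOver F)) :
    trQ (M * N) = (blockHom F M).1.mulVec (trQ N) + trQ M :=
  tr_mul M.2 N.2

theorem eq_mkQ (M : ↥(Cfsg.qdOver F)) : M = mkQ (blockHom F M) (trQ M) := by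
  apply Subtype.ext
  apply Subtype.ext
  rw [mkQ_coe]
  exact eq_mk M.2

theorem ext_Q {M N : ↥(Cfsg.qdOver F)} (h1 : blockHom F M = blockHom F N) (h2 : trQ M = trQ N) :
    M = N := by
  rw [eq_mkQ M, eq_mkQ N, h1, h2]

theorem mem_ker_iff (M : ↥(Cfsg.qdOver F)) : M ∈ (blockHom F).ker ↔
    ((M : SL3 F) : Matrix (Fin 3) (Fin 3) F) 0 0 = 1 ∧
    ((M : SL3 F) : Matrix (Fin 3) (Fin 3) F) 0 1 = 0 ∧
    ((M : SL3 F) : Matrix (Fin 3) (Fin 3) F) 1 0 = 0 ∧
    ((M : SL3 F) : Matrix (Fin 3) (Fin 3) F) 1 1 = 1 := by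
  rw [MonoidHom.mem_ker]
  constructor
  · intro h
    have h' := congrArg (fun X : Matrix.SpecialLinearGroup (Fin 2) F =>
      (X : Matrix (Fin 2) (Fin 2) F)) h
    simp only [blockHom_coe, Matrix.SpecialLinearGroup.coe_one] at h'
    have e00 := congrFun (congrFun h' 0) 0
    have e01 := congrFun (congrFun h' 0) 1
    have e10 := congrFun (congrFun h' 1) 0
    have e11 := congrFun (congrFun h' 1) 1
    simp [blk] at e00 e01 e10 e11
    exact ⟨e00, e01, e10, e11⟩
  · rintro ⟨e00, e01, e10, e11⟩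
    apply Subtype.ext
    rw [blockHom_coe, Matrix.SpecialLinearGroup.coe_one]
    ext i j
    fin_cases i <;> fin_cases j <;> simp [blk, e00, e01, e10, e11]

/-- the translation map on the kernel, as an additive homomorphism -/
def psiHom (F : Type*) [Field F] : Additive ↥(blockHom F).ker →+ (Fin 2 → F) where
  toFun := fun v => trQ (Additive.toMul v).1
  map_zero' := by
    show trQ (1 : ↥(Cfsg.qdOver F)) = 0
    unfold trQ
    show tr ((1 : SL3 F) : Matrix (Fin 3) (Fin 3) F) = 0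
    rw [Matrix.SpecialLinearGroup.coe_one, ← mk_one, tr_mk]
  map_add' := by
    intro v w
    show trQ ((Additive.toMul v).1 * (Additive.toMul w).1) = _
    rw [trQ_mul]
    have h : blockHom F (Additive.toMul v).1 = 1 := (Additive.toMul v).2
    rw [h, Matrix.SpecialLinearGroup.coe_one, Matrix.one_mulVec, add_comm]

theorem psiHom_bijective : Function.Bijective (psiHom F) := by
  constructor
  · intro v w h
    have h' : trQ (Additive.toMul v).1 = trQ (Additive.toMul w).1 := h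
    have h1 : blockHom F (Additive.toMul v).1 = 1 := (Additive.toMul v).2
    have h2 : blockHom F (Additive.toMul w).1 = 1 := (Additive.toMul w).2
    have : (Additive.toMul v).1 = (Additive.toMul w).1 := ext_Q (h1.trans h2.symm) h'
    exact Additive.toMul.injective (Subtype.ext this)
  · intro x
    refine ⟨Additive.ofMul ⟨mkQ 1 x, ?_⟩, ?_⟩
    · rw [MonoidHom.mem_ker, blockHom_mkQ]
    · show trQ (mkQ 1 x) = x
      rw [trQ_mkQ]

/-- the translation map on the kernel, as an additive equivalence -/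
noncomputable def psi (F : Type*) [Field F] : Additive ↥(blockHom F).ker ≃+ (Fin 2 → F) :=
  AddEquiv.ofBijective (psiHom F) psiHom_bijective

theorem psi_apply (v : ↥(blockHom F).ker) : psi F (Additive.ofMul v) = trQ v.1 := rfl

/-- the kernel is a `p`-group -/
theorem ker_isPGroup (p : ℕ) [CharP F p] : IsPGroup p ↥(blockHom F).ker := by
  intro g
  refine ⟨1, ?_⟩
  rw [pow_one]
  have h : psi F (Additive.ofMul (g ^ p)) = 0 := by
    rw [ofMul_pow, map_nsmul]
    have : CharP (Fin 2 → F) p := by infer_instance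
    rw [nsmul_eq_mul, CharP.cast_eq_zero, zero_mul]
  have h0 : psi F (Additive.ofMul (1 : ↥(blockHom F).ker)) = 0 := map_zero _
  have := (psi F).injective (h.trans h0.symm)
  exact this

/-- a `p`-element of `SL₂` in characteristic `p` has trace `2` -/
theorem trace_eq_two (p : ℕ) [Fact p.Prime] [CharP F p] (g : Matrix.SpecialLinearGroup (Fin 2) F)
    (k : ℕ) (hg : g ^ p ^ k = 1) : g.1 0 0 + g.1 1 1 = 2 := by
  have h1 : (g.1 - 1) ^ p ^ k = 0 := by
    rw [sub_pow_char_pow_of_commute p k (Commute.one_right g.1), one_pow]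
    have := congrArg (fun X : Matrix.SpecialLinearGroup (Fin 2) F =>
      (X : Matrix (Fin 2) (Fin 2) F)) hg
    simp only [Matrix.SpecialLinearGroup.coe_pow, Matrix.SpecialLinearGroup.coe_one] at this
    rw [this, sub_self]
  have h2 : IsNilpotent (g.1 - 1) := ⟨p ^ k, h1⟩
  have h3 := (Matrix.isNilpotent_trace_of_isNilpotent h2).eq_zero
  rw [Matrix.trace_sub, Matrix.trace_fin_two, Matrix.trace_fin_two] at h3
  simp at h3
  linear_combination h3

/-- upper unitriangular matrices -/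
def upp (x : F) : Matrix.SpecialLinearGroup (Fin 2) F :=
  ⟨!![1, x; 0, 1], by simp [Matrix.det_fin_two]⟩

/-- lower unitriangular matrices -/
def low (x : F) : Matrix.SpecialLinearGroup (Fin 2) F :=
  ⟨!![1, 0; x, 1], by simp [Matrix.det_fin_two]⟩

/-- the upper unitriangular subgroup -/
def Upp (F : Type*) [Field F] : Subgroup (Matrix.SpecialLinearGroup (Fin 2) F) where
  carrier := Set.range upp
  mul_mem' := by
    rintro _ _ ⟨x, rfl⟩ ⟨y, rfl⟩
    refine ⟨x + y, ?_⟩
    apply Subtype.ext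
    rw [Matrix.SpecialLinearGroup.coe_mul]
    ext i j
    fin_cases i <;> fin_cases j <;> simp [upp, Matrix.mul_apply, Fin.sum_univ_two, add_comm]
  one_mem' := by
    refine ⟨0, ?_⟩
    apply Subtype.ext
    ext i j
    fin_cases i <;> fin_cases j <;> simp [upp]
  inv_mem' := by
    rintro _ ⟨x, rfl⟩
    refine ⟨-x, ?_⟩
    apply eq_inv_of_mul_eq_one_left
    apply Subtype.ext
    rw [Matrix.SpecialLinearGroup.coe_mul, Matrix.SpecialLinearGroup.coe_one]
    ext i j
    fin_cases i <;> fin_cases j <;> simp [upp, Matrix.mul_apply, Fin.sum_univ_two]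

/-- the lower unitriangular subgroup -/
def Low (F : Type*) [Field F] : Subgroup (Matrix.SpecialLinearGroup (Fin 2) F) where
  carrier := Set.range low
  mul_mem' := by
    rintro _ _ ⟨x, rfl⟩ ⟨y, rfl⟩
    refine ⟨x + y, ?_⟩
    apply Subtype.ext
    rw [Matrix.SpecialLinearGroup.coe_mul]
    ext i j
    fin_cases i <;> fin_cases j <;> simp [low, Matrix.mul_apply, Fin.sum_univ_two]
  one_mem' := by
    refine ⟨0, ?_⟩
    apply Subtype.ext
    ext i j
    fin_cases i <;> fin_cases j <;> simp [low]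
  inv_mem' := by
    rintro _ ⟨x, rfl⟩
    refine ⟨-x, ?_⟩
    apply eq_inv_of_mul_eq_one_left
    apply Subtype.ext
    rw [Matrix.SpecialLinearGroup.coe_mul, Matrix.SpecialLinearGroup.coe_one]
    ext i j
    fin_cases i <;> fin_cases j <;> simp [low, Matrix.mul_apply, Fin.sum_univ_two]

theorem upp_pow (p : ℕ) [CharP F p] (x : F) : upp x ^ p = 1 := by
  have h : ∀ n : ℕ, upp x ^ n = upp (n * x) := by
    intro n
    induction n with
    | zero =>
      rw [pow_zero]
      apply Subtype.ext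
      rw [Matrix.SpecialLinearGroup.coe_one]
      ext i j
      fin_cases i <;> fin_cases j <;> simp [upp]
    | succ n ih =>
      rw [pow_succ, ih]
      apply Subtype.ext
      rw [Matrix.SpecialLinearGroup.coe_mul]
      ext i j
      fin_cases i <;> fin_cases j <;> simp [upp, Matrix.mul_apply, Fin.sum_univ_two] <;> ring
  rw [h, CharP.cast_eq_zero, zero_mul]
  apply Subtype.ext
  ext i j
  fin_cases i <;> fin_cases j <;> simp [upp]

theorem low_pow (p : ℕ) [CharP F p] (x : F) : low x ^ p = 1 := by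
  have h : ∀ n : ℕ, low x ^ n = low (n * x) := by
    intro n
    induction n with
    | zero =>
      rw [pow_zero]
      apply Subtype.ext
      rw [Matrix.SpecialLinearGroup.coe_one]
      ext i j
      fin_cases i <;> fin_cases j <;> simp [low]
    | succ n ih =>
      rw [pow_succ, ih]
      apply Subtype.ext
      rw [Matrix.SpecialLinearGroup.coe_mul]
      ext i j
      fin_cases i <;> fin_cases j <;> simp [low, Matrix.mul_apply, Fin.sum_univ_two] <;> ring
  rw [h, CharP.cast_eq_zero, zero_mul]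
  apply Subtype.ext
  ext i j
  fin_cases i <;> fin_cases j <;> simp [low]

theorem Upp_isPGroup (p : ℕ) [CharP F p] : IsPGroup p ↥(Upp F) := by
  rintro ⟨_, x, rfl⟩
  refine ⟨1, ?_⟩
  apply Subtype.ext
  rw [pow_one]
  exact upp_pow p x

theorem Low_isPGroup (p : ℕ) [CharP F p] : IsPGroup p ↥(Low F) := by
  rintro ⟨_, x, rfl⟩
  refine ⟨1, ?_⟩
  apply Subtype.ext
  rw [pow_one]
  exact low_pow p x

/-- a normal `p`-subgroup of `SL₂(F)` is trivial in characteristic `p` -/
theorem normal_pgroup_trivial (p : ℕ) [Fact p.Prime] [CharP F p]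
    (N : Subgroup (Matrix.SpecialLinearGroup (Fin 2) F)) [hN : N.Normal] (hp : IsPGroup p N) :
    N = ⊥ := by
  rw [Subgroup.eq_bot_iff_forall]
  intro n hn
  have hU : IsPGroup p ↥(Upp F ⊔ N) := (Upp_isPGroup p).to_sup_of_normal_right hp
  have hL : IsPGroup p ↥(Low F ⊔ N) := (Low_isPGroup p).to_sup_of_normal_right hp
  have key : ∀ (U : Subgroup (Matrix.SpecialLinearGroup (Fin 2) F)), IsPGroup p ↥(U ⊔ N) →
      ∀ u ∈ U, (u.1 * n.1) 0 0 + (u.1 * n.1) 1 1 = 2 := by
    intro U hUN u hu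
    have hmem : u * n ∈ U ⊔ N := mul_mem (Subgroup.mem_sup_left hu) (Subgroup.mem_sup_right hn)
    obtain ⟨k, hk⟩ := hUN ⟨u * n, hmem⟩
    have hk' : (u * n) ^ p ^ k = 1 := by
      have := congrArg Subtype.val hk
      simpa using this
    have h2 := trace_eq_two p _ k hk'
    rw [Matrix.SpecialLinearGroup.coe_mul] at h2
    exact h2
  have t0 := key (Upp F) hU (upp 0) ⟨0, rfl⟩
  have t1 := key (Upp F) hU (upp 1) ⟨1, rfl⟩
  have s1 := key (Low F) hL (low 1) ⟨1, rfl⟩
  simp [upp, low, Matrix.mul_apply, Fin.sum_univ_two] at t0 t1 s1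
  have hdet := n.2
  rw [Matrix.det_fin_two] at hdet
  have hc : n.1 1 0 = 0 := by linear_combination t1 - t0
  have hb : n.1 0 1 = 0 := by linear_combination s1 - t0
  rw [hc, hb] at hdet
  have ha : (n.1 0 0 - 1) ^ 2 = 0 := by linear_combination (-1 : F) * hdet + n.1 0 0 * t0
  have ha' : n.1 0 0 = 1 := by
    have := pow_eq_zero_iff (two_ne_zero) |>.mp ha
    linear_combination this
  have hd : n.1 1 1 = 1 := by linear_combination t0 - ha'
  apply Subtype.ext
  ext i j
  fin_cases i <;> fin_cases j <;> simp [ha', hb, hc, hd]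

/-- the `p`-core of `Qd` is the translation subgroup -/
theorem pCore_eq (p : ℕ) [Fact p.Prime] [Fintype F] [CharP F p] :
    Cfsg.pCore p ↥(Cfsg.qdOver F) = (blockHom F).ker := by
  classical
  apply le_antisymm
  · have hn : (Cfsg.pCore p ↥(Cfsg.qdOver F)).Normal := Subgroup.sSup_normal _ (fun _ h => h.1)
    have hpg : IsPGroup p ↥(Cfsg.pCore p ↥(Cfsg.qdOver F)) :=
      Sylow.sSup_of_normal _ (fun _ h => h.2) (fun _ h => h.1)
    have hmapn : ((Cfsg.pCore p ↥(Cfsg.qdOver F)).map (blockHom F)).Normal :=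
      hn.map _ blockHom_surjective
    have hmapp : IsPGroup p ↥((Cfsg.pCore p ↥(Cfsg.qdOver F)).map (blockHom F)) := hpg.map _
    have hbot := normal_pgroup_trivial p _ hmapp
    intro M hM
    rw [MonoidHom.mem_ker]
    have : blockHom F M ∈ (Cfsg.pCore p ↥(Cfsg.qdOver F)).map (blockHom F) :=
      Subgroup.mem_map_of_mem _ hM
    rw [hbot] at this
    exact Subgroup.mem_bot.mp this
  · exact le_sSup ⟨(blockHom F).normal_ker, ker_isPGroup p⟩

/-- the block-diagonal complement -/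
def Kc (F : Type*) [Field F] : Subgroup ↥(Cfsg.qdOver F) where
  carrier := {M | trQ M = 0}
  mul_mem' := by
    intro M N hM hN
    show trQ (M * N) = 0
    have hM' : trQ M = 0 := hM
    have hN' : trQ N = 0 := hN
    rw [trQ_mul, hM', hN', Matrix.mulVec_zero, add_zero]
  one_mem' := by
    show trQ (1 : ↥(Cfsg.qdOver F)) = 0
    unfold trQ
    show tr ((1 : SL3 F) : Matrix (Fin 3) (Fin 3) F) = 0
    rw [Matrix.SpecialLinearGroup.coe_one, ← mk_one, tr_mk]
  inv_mem' := by
    intro M hM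
    have hM' : trQ M = 0 := hM
    show trQ M⁻¹ = 0
    have h1 : trQ (M * M⁻¹) = 0 := by
      rw [mul_inv_cancel]
      unfold trQ
      show tr ((1 : SL3 F) : Matrix (Fin 3) (Fin 3) F) = 0
      rw [Matrix.SpecialLinearGroup.coe_one, ← mk_one, tr_mk]
    rw [trQ_mul, hM', add_zero] at h1
    have h2 : (blockHom F M⁻¹).1.mulVec ((blockHom F M).1.mulVec (trQ M⁻¹)) = 0 := by
      rw [h1, Matrix.mulVec_zero]
    rw [Matrix.mulVec_mulVec, ← Matrix.SpecialLinearGroup.coe_mul, ← map_mul, inv_mul_cancel,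
      map_one, Matrix.SpecialLinearGroup.coe_one, Matrix.one_mulVec] at h2
    exact h2

theorem mem_Kc (M : ↥(Cfsg.qdOver F)) : M ∈ Kc F ↔ trQ M = 0 := Iff.rfl

theorem mem_Kc_iff (M : ↥(Cfsg.qdOver F)) : M ∈ Kc F ↔
    ((M : SL3 F) : Matrix (Fin 3) (Fin 3) F) 0 2 = 0 ∧
    ((M : SL3 F) : Matrix (Fin 3) (Fin 3) F) 1 2 = 0 := by
  rw [mem_Kc]
  unfold trQ tr
  constructor
  · intro h
    have h0 := congrFun h 0
    have h1 := congrFun h 1
    simp at h0 h1
    exact ⟨h0, h1⟩
  · rintro ⟨h0, h1⟩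
    ext i
    fin_cases i <;> simp [h0, h1]

theorem Kc_inf_ker : Kc F ⊓ (blockHom F).ker = ⊥ := by
  rw [Subgroup.eq_bot_iff_forall]
  rintro M ⟨hK, hT⟩
  have h1 : blockHom F M = blockHom F 1 := by
    rw [map_one]; exact hT
  have h2 : trQ M = trQ (1 : ↥(Cfsg.qdOver F)) := by
    have : trQ (1 : ↥(Cfsg.qdOver F)) = 0 := (Kc F).one_mem
    rw [this]; exact hK
  exact ext_Q h1 h2

theorem Kc_sup_ker : Kc F ⊔ (blockHom F).ker = ⊤ := by
  rw [eq_top_iff]
  intro M _
  have h : M = mkQ 1 (trQ M) * mkQ (blockHom F M) 0 := by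
    apply ext_Q
    · rw [map_mul, blockHom_mkQ, blockHom_mkQ, one_mul]
    · rw [trQ_mul, trQ_mkQ, trQ_mkQ, Matrix.mulVec_zero, zero_add]
  rw [h]
  refine mul_mem (Subgroup.mem_sup_right ?_) (Subgroup.mem_sup_left ?_)
  · rw [MonoidHom.mem_ker, blockHom_mkQ]
  · rw [mem_Kc, trQ_mkQ]

/-- the restriction of the block homomorphism to the complement -/
def rho (F : Type*) [Field F] : ↥(Kc F) →* Matrix.SpecialLinearGroup (Fin 2) F :=
  (blockHom F).comp (Kc F).subtype

theorem rho_injective : Function.Injective (rho F) := by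
  intro M N h
  apply Subtype.ext
  apply ext_Q h
  have hM : trQ M.1 = 0 := M.2
  have hN : trQ N.1 = 0 := N.2
  show trQ M.1 = trQ N.1
  rw [hM, hN]

theorem rho_surjective : Function.Surjective (rho F) := by
  intro A
  refine ⟨⟨mkQ A 0, ?_⟩, ?_⟩
  · rw [mem_Kc, trQ_mkQ]
  · exact blockHom_mkQ A 0

/-- conjugation formula -/
theorem trQ_conj (l : ↥(Cfsg.qdOver F)) (hl : l ∈ Kc F) (v : ↥(Cfsg.qdOver F))
    (hv : v ∈ (blockHom F).ker) :
    trQ (l * v * l⁻¹) = (blockHom F l).1.mulVec (trQ v) := by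
  have hl' : trQ l = 0 := hl
  have hl'' : trQ l⁻¹ = 0 := (Kc F).inv_mem hl
  have hv' : blockHom F v = 1 := hv
  rw [trQ_mul, trQ_mul, hl', hl'', Matrix.mulVec_zero, zero_add, add_zero]

/-- the natural module statement for the kernel -/
theorem natural_module : Cfsg.IsNaturalSL2Module F (blockHom F).ker (Kc F) := by
  refine ⟨?_, rho F, psi F, rho_surjective, ?_, ?_⟩
  · rw [Subgroup.normalizer_eq_top]
    exact le_top
  · rw [(MonoidHom.ker_eq_bot_iff (rho F)).mpr rho_injective]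
    symm
    rw [Subgroup.eq_bot_iff_forall]
    intro l hl
    rw [Subgroup.mem_subgroupOf, Subgroup.mem_centralizer_iff] at hl
    apply rho_injective
    rw [map_one]
    apply Subtype.ext
    rw [Matrix.SpecialLinearGroup.coe_one]
    have key : ∀ x : Fin 2 → F, (rho F l).1.mulVec x = x := by
      intro x
      have hmem : mkQ 1 x ∈ (blockHom F).ker := by rw [MonoidHom.mem_ker, blockHom_mkQ]
      have h1 := hl (mkQ 1 x) hmem
      have h2 := trQ_conj l.1 l.2 (mkQ 1 x) hmem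
      have h3 : l.1 * mkQ 1 x * l.1⁻¹ = mkQ 1 x := by
        rw [← h1, mul_inv_cancel_right]
      rw [h3, trQ_mkQ] at h2
      exact h2.symm
    ext i j
    have := congrFun (key (Pi.single j 1)) i
    rw [Matrix.mulVec_single_one] at this
    rw [Matrix.one_apply]
    rw [Matrix.col_apply] at this
    rw [this, Pi.single_apply]
  · intro l v
    refine ⟨⟨l.1 * v.1 * l.1⁻¹, (blockHom F).normal_ker.conj_mem _ v.2 _⟩, rfl, ?_⟩
    rw [psi_apply, psi_apply]
    exact trQ_conj l.1 l.2 v.1 v.2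

end Cfsg.Agent.Helper1.QdO
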