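import Mathlib
import Cfsg.Prelude.Def_Transfer
import Cfsg.Agent.Helper13.NPC

/-!
# S4016: definitions for the minimal counterexample (helper1)
-/

set_option autoImplicit false

namespace Cfsg.Agent.Helper1.S16

open Cfsg.Agent.Helper13

universe u

variable {G : Type u} [Group G]

/-- `H` has a normal Sylow `p`-subgroup (stated inside `G`): a `p`-subgroup `T ≤ H` normalised
by `H` and containing every `p`-subgroup of `H`. -/
def NSin (p : ℕ) (H : Subgroup G) : Prop :=
  ∃ T : Subgroup G, T ≤ H ∧ IsPGroup p T ∧ H ≤ Subgroup.normalizer (T : Set G) ∧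
    ∀ Q : Subgroup G, Q ≤ H → IsPGroup p Q → Q ≤ T

/-- data of a minimal counterexample to S4016: `G` simple, cyclic Sylow `p`, abelian
`p'`-subgroups, every proper subgroup has a normal `p`-complement (`NPCin`) or a normal Sylow
`p`-subgroup (`NSin`), and `G` itself has neither. -/
structure MC (p : ℕ) (P : Sylow p G) : Prop where
  simple : IsSimpleGroup G
  cyc : IsCyclic P
  ab : ∀ H : Subgroup G, ¬ p ∣ Nat.card H → IsMulCommutative H
  min : ∀ H : Subgroup G, H ≠ ⊤ → NPCin p H ∨ NSin p H
  nnc : ¬ Cfsg.HasNormalPComplement p G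
  nnn : ¬ (P : Subgroup G).Normal

end Cfsg.Agent.Helper1.S16
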