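import Mathlib
import Cfsg.Agent.Helper1.Q8C3
import Cfsg.Agent.Helper17.Basic
import Cfsg.Agent.Helper10.PCons

set_option autoImplicit false

/-!
Helper library (seat helper1): the structure of `SL(2,3)`: centre, commutator subgroup `Q₈`,
normal subgroups, `2`-constraint.
-/

namespace Cfsg.Agent.Helper1.SL23

open Cfsg Cfsg.Agent.Helper1

/-- local abbreviation -/
abbrev G23 := Matrix.SpecialLinearGroup (Fin 2) (ZMod 3)

set_option maxRecDepth 100000 in
theorem central_iff : ∀ g : G23, (∀ h : G23, h * g = g * h) ↔ (g = 1 ∨ g = -1) := by decide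

set_option maxRecDepth 100000 in
theorem sq_one_iff : ∀ g : G23, g ^ 2 = 1 ↔ (g = 1 ∨ g = -1) := by decide

set_option maxRecDepth 100000 in
theorem neg_one_ne : (-1 : G23) ≠ 1 := by decide

set_option maxRecDepth 100000 in
theorem comm_pow_four : ∀ a b : G23, (a * b * a⁻¹ * b⁻¹) ^ 4 = 1 := by decide

set_option maxRecDepth 100000 in
theorem pow_four_mul : ∀ a b : G23, a ^ 4 = 1 → b ^ 4 = 1 → (a * b) ^ 4 = 1 := by decide

set_option maxRecDepth 100000 in
theorem pow_four_inv : ∀ a : G23, a ^ 4 = 1 → a⁻¹ ^ 4 = 1 := by decide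

set_option maxRecDepth 100000 in
theorem pow_four_conj : ∀ a h : G23, a ^ 4 = 1 → (h * a * h⁻¹) ^ 4 = 1 := by decide

set_option maxRecDepth 100000 in
theorem pow_four_is_comm : ∀ g : G23, g ^ 4 = 1 → ∃ a b : G23, a * b * a⁻¹ * b⁻¹ = g := by decide

set_option maxRecDepth 100000 in
theorem outside_gives_four : ∀ g : G23, g ^ 4 ≠ 1 → ∃ h : G23, (h * g * h⁻¹ * g⁻¹) ^ 2 ≠ 1 := by
  decide

set_option maxRecDepth 100000 in
theorem four_conj : ∀ c x : G23, c ^ 4 = 1 → c ^ 2 ≠ 1 → x ^ 4 = 1 →
    (∃ h : G23, x = h * c * h⁻¹) ∨ x = c ^ 2 ∨ x = 1 := by decide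

set_option maxRecDepth 100000 in
theorem cent_q : ∀ g : G23, (∀ x : G23, x ^ 4 = 1 → x * g = g * x) → g ^ 4 = 1 := by decide

/-- the quaternion subgroup `{g | g^4 = 1}` -/
def Q : Subgroup G23 where
  carrier := {g | g ^ 4 = 1}
  mul_mem' := fun {a b} ha hb => pow_four_mul a b ha hb
  one_mem' := one_pow 4
  inv_mem' := fun {a} ha => pow_four_inv a ha

theorem mem_Q {g : G23} : g ∈ Q ↔ g ^ 4 = 1 := Iff.rfl

instance Q_normal : Q.Normal := ⟨fun a ha h => pow_four_conj a h ha⟩

theorem commutator_eq_Q : commutator G23 = Q := by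
  apply le_antisymm
  · rw [commutator_eq_closure, Subgroup.closure_le]
    rintro _ ⟨a, b, rfl⟩
    exact comm_pow_four a b
  · intro g hg
    obtain ⟨a, b, rfl⟩ := pow_four_is_comm g hg
    rw [commutator_eq_closure]
    exact Subgroup.subset_closure ⟨a, b, rfl⟩

/-- the map from the quaternion group -/
def qf : QuaternionGroup 2 → G23
  | QuaternionGroup.a i => sl23A ^ i.val
  | QuaternionGroup.xa i => sl23B * sl23A ^ i.val

set_option maxRecDepth 100000 in
theorem qf_mul : ∀ x y : QuaternionGroup 2, qf (x * y) = qf x * qf y := by decide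

set_option maxRecDepth 100000 in
theorem qf_inj : ∀ x y : QuaternionGroup 2, qf x = qf y → x = y := by decide

set_option maxRecDepth 100000 in
theorem qf_range : ∀ g : G23, g ^ 4 = 1 ↔ ∃ x : QuaternionGroup 2, qf x = g := by decide

/-- `qf` as a homomorphism -/
def qfHom : QuaternionGroup 2 →* G23 := MonoidHom.mk' qf qf_mul

theorem qfHom_range : qfHom.range = Q := by
  ext g
  rw [MonoidHom.mem_range, mem_Q, qf_range]
  rfl

theorem card_Q : Nat.card Q = 8 := by
  rw [← qfHom_range]
  have e : QuaternionGroup 2 ≃* qfHom.range :=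
    MonoidHom.ofInjective (f := qfHom) (fun x y h => qf_inj x y h)
  rw [← Nat.card_congr e.toEquiv, Nat.card_eq_fintype_card, QuaternionGroup.card]

theorem Q_iso : Nonempty (Q ≃* QuaternionGroup 2) := by
  have e : QuaternionGroup 2 ≃* qfHom.range :=
    MonoidHom.ofInjective (f := qfHom) (fun x y h => qf_inj x y h)
  exact ⟨(e.trans (MulEquiv.subgroupCongr qfHom_range)).symm⟩

theorem mem_center_iff {g : G23} : g ∈ Subgroup.center G23 ↔ (g = 1 ∨ g = -1) := by
  rw [Subgroup.mem_center_iff, central_iff]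

theorem card_center : Nat.card (Subgroup.center G23) = 2 := by
  rw [Nat.card_eq_two_iff]
  refine ⟨⟨1, mem_center_iff.mpr (Or.inl rfl)⟩, ⟨-1, mem_center_iff.mpr (Or.inr rfl)⟩, ?_, ?_⟩
  · intro h
    exact neg_one_ne (congrArg Subtype.val h).symm
  · ext x
    simp only [Set.mem_insert_iff, Set.mem_singleton_iff, Set.mem_univ, iff_true]
    rcases mem_center_iff.mp x.2 with h | h
    · left; exact Subtype.ext h
    · right; exact Subtype.ext h

/-- a normal subgroup containing an element of order 4 contains `Q` -/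
theorem Q_le_of_four {N : Subgroup G23} [hN : N.Normal] {c : G23} (hc : c ∈ N) (h4 : c ^ 4 = 1)
    (h2 : c ^ 2 ≠ 1) : Q ≤ N := by
  intro x hx
  rcases four_conj c x h4 h2 hx with ⟨h, rfl⟩ | rfl | rfl
  · exact hN.conj_mem c hc h
  · exact pow_mem hc 2
  · exact one_mem N

/-- classification of the normal subgroups of `SL(2,3)` -/
theorem normal_cases (N : Subgroup G23) (hN : N.Normal) :
    N = ⊥ ∨ N = ⊤ ∨ N = Subgroup.center G23 ∨ N = Q := by
  by_cases hQ : N ≤ Q
  · by_cases h4 : ∃ c ∈ N, c ^ 2 ≠ 1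
    · obtain ⟨c, hc, h2⟩ := h4
      right; right; right
      exact le_antisymm hQ (Q_le_of_four hc (hQ hc) h2)
    · push Not at h4
      by_cases hm : (-1 : G23) ∈ N
      · right; right; left
        ext g
        rw [mem_center_iff]
        constructor
        · intro hg; exact (sq_one_iff g).mp (h4 g hg)
        · rintro (rfl | rfl)
          · exact one_mem N
          · exact hm
      · left
        rw [eq_bot_iff]
        intro g hg
        rcases (sq_one_iff g).mp (h4 g hg) with rfl | rfl
        · exact Subgroup.mem_bot.mpr rfl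
        · exact absurd hg hm
  · right; left
    obtain ⟨g, hg, hgQ⟩ := SetLike.not_le_iff_exists.mp hQ
    obtain ⟨h, hh⟩ := outside_gives_four g hgQ
    have hcN : h * g * h⁻¹ * g⁻¹ ∈ N := mul_mem (hN.conj_mem g hg h) (inv_mem hg)
    have hQN : Q ≤ N := Q_le_of_four hcN (comm_pow_four h g) hh
    -- card argument
    have h8 : 8 ∣ Nat.card N := by
      rw [← card_Q]; exact Subgroup.card_dvd_of_le hQN
    have h24 : Nat.card N ∣ 24 := by
      rw [← sl23_card]; exact Subgroup.card_subgroup_dvd_card N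
    have hlt : Nat.card N ≠ 8 := by
      intro h8'
      have : Q = N := Subgroup.eq_of_le_of_card_ge hQN (by rw [card_Q, h8'])
      exact hQ this.ge
    have h24' : Nat.card N = 24 := by
      have hle : Nat.card N ≤ 24 := Nat.le_of_dvd (by norm_num) h24
      obtain ⟨k, hk⟩ := h8
      have hpos : 0 < Nat.card N := Nat.card_pos
      have hk3 : k ≤ 3 := by omega
      have hk2 : 1 < k := by omega
      interval_cases k
      · rw [hk] at h24; norm_num at h24
      · omega
    exact (Subgroup.card_eq_iff_eq_top N).mp (h24'.trans sl23_card.symm)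

end Cfsg.Agent.Helper1.SL23
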