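import Mathlib
import Cfsg.Agent.Helper1.SL23

set_option autoImplicit false

/-!
Helper library (seat helper1): `SL(2,3)` continued: Sylow 3-subgroups complement `Q₈`,
`O_{2'} = 1`, `2`-constraint.
-/

namespace Cfsg.Agent.Helper1.SL23

open Cfsg Cfsg.Agent.Helper1

theorem card_sylow3 (P : Sylow 3 G23) : Nat.card (P : Subgroup G23) = 3 := by
  have h1 := P.card_eq_multiplicity
  rw [sl23_card] at h1
  have h2 : (24 : ℕ).factorization 3 = 1 := by
    have : (24 : ℕ) = 3 ^ 1 * 8 := by norm_num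
    rw [this, Nat.factorization_mul (by norm_num) (by norm_num), Nat.Prime.factorization_pow (by norm_num)]
    simp
    exact Nat.factorization_eq_zero_of_not_dvd (by norm_num)
  rw [h2] at h1
  simpa using h1

theorem sylow3_complement (P : Sylow 3 G23) :
    Subgroup.IsComplement' (commutator G23) (P : Subgroup G23) := by
  apply Subgroup.isComplement'_of_coprime
  · rw [commutator_eq_Q, card_Q, card_sylow3, sl23_card]
  · rw [commutator_eq_Q, card_Q, card_sylow3]; decide

theorem card_cases (N : Subgroup G23) (hN : N.Normal) :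
    N = ⊥ ∨ Nat.card N = 24 ∨ Nat.card N = 2 ∨ Nat.card N = 8 := by
  rcases normal_cases N hN with h | h | h | h
  · left; exact h
  · right; left; rw [h, Subgroup.card_top, sl23_card]
  · right; right; left; rw [h, card_center]
  · right; right; right; rw [h, card_Q]

theorem pPrimeCore_eq_bot : Cfsg.pPrimeCore 2 G23 = ⊥ := by
  rw [eq_bot_iff]
  apply sSup_le
  rintro N ⟨hN, hc⟩
  rcases card_cases N hN with h | h | h | h
  · exact h.le
  · rw [h] at hc; exact absurd hc (by decide)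
  · rw [h] at hc; exact absurd hc (by decide)
  · rw [h] at hc; exact absurd hc (by decide)

theorem Q_isPGroup : IsPGroup 2 Q := by
  apply IsPGroup.of_card (n := 3)
  rw [card_Q]; norm_num

theorem Q_le_pPrimePCore : Q ≤ Cfsg.pPrimePCore 2 G23 := by
  intro x hx
  show QuotientGroup.mk' (Cfsg.pPrimeCore 2 G23) x ∈ Cfsg.pCore 2 (G23 ⧸ Cfsg.pPrimeCore 2 G23)
  have h1 : (Q.map (QuotientGroup.mk' (Cfsg.pPrimeCore 2 G23))).Normal :=
    Subgroup.Normal.map Q_normal _ (QuotientGroup.mk'_surjective _)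
  have h2 : IsPGroup 2 (Q.map (QuotientGroup.mk' (Cfsg.pPrimeCore 2 G23))) :=
    Q_isPGroup.map _
  exact (le_sSup (show Q.map (QuotientGroup.mk' (Cfsg.pPrimeCore 2 G23)) ∈
    {N : Subgroup (G23 ⧸ Cfsg.pPrimeCore 2 G23) | N.Normal ∧ IsPGroup 2 N} from ⟨h1, h2⟩))
    (Subgroup.mem_map_of_mem _ hx)

theorem pPrimePCore_ne_top : Cfsg.pPrimePCore 2 G23 ≠ ⊤ := by
  intro h
  -- then the quotient is a 2-group of order 24
  have h1 : Cfsg.pCore 2 (G23 ⧸ Cfsg.pPrimeCore 2 G23) = ⊤ := by
    rw [eq_top_iff]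
    intro y _
    obtain ⟨x, rfl⟩ := QuotientGroup.mk'_surjective (Cfsg.pPrimeCore 2 G23) y
    have : x ∈ Cfsg.pPrimePCore 2 G23 := by rw [h]; exact Subgroup.mem_top x
    exact this
  have h2 : IsPGroup 2 (G23 ⧸ Cfsg.pPrimeCore 2 G23) := by
    have := Cfsg.Agent.Helper17.pCore_isPGroup 2 (G23 ⧸ Cfsg.pPrimeCore 2 G23)
    rw [h1] at this
    exact (IsPGroup.of_equiv this Subgroup.topEquiv)
  have h3 : Nat.card (G23 ⧸ Cfsg.pPrimeCore 2 G23) = 24 := by
    have := Subgroup.card_eq_card_quotient_mul_card_subgroup (Cfsg.pPrimeCore 2 G23)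
    rw [sl23_card, pPrimeCore_eq_bot, Subgroup.card_bot, mul_one] at this
    rw [pPrimeCore_eq_bot]
    exact this.symm
  obtain ⟨k, hk⟩ := (IsPGroup.iff_card.mp h2)
  rw [h3] at hk
  have : (3 : ℕ) ∣ 2 ^ k := by rw [← hk]; norm_num
  have := (Nat.Prime.dvd_of_dvd_pow Nat.prime_three this)
  omega

theorem pPrimePCore_eq : Cfsg.pPrimePCore 2 G23 = Q := by
  rcases normal_cases _ (Cfsg.Agent.Helper10.pPrimePCore_normal 2 G23) with h | h | h | h
  · have := Q_le_pPrimePCore
    rw [h] at this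
    have h8 := card_Q
    rw [(eq_bot_iff.mpr this), Subgroup.card_bot] at h8
    omega
  · exact absurd h pPrimePCore_ne_top
  · have := Subgroup.card_le_of_le Q_le_pPrimePCore
    rw [h, card_Q, card_center] at this
    omega
  · exact h

theorem isPConstrained : Cfsg.IsPConstrained 2 G23 := by
  intro P
  have hcard : Nat.card (Cfsg.pPrimePCore 2 G23) = 8 := by rw [pPrimePCore_eq, card_Q]
  have hP : (P : Subgroup (Cfsg.pPrimePCore 2 G23)) = ⊤ := by
    have hK : IsPGroup 2 (Cfsg.pPrimePCore 2 G23) := by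
      apply IsPGroup.of_card (n := 3)
      rw [hcard]; norm_num
    have := P.is_maximal' (Q := ⊤) (hK.of_equiv Subgroup.topEquiv.symm) le_top
    exact this.symm
  rw [hP]
  have hmap : (⊤ : Subgroup (Cfsg.pPrimePCore 2 G23)).map (Cfsg.pPrimePCore 2 G23).subtype
      = Cfsg.pPrimePCore 2 G23 := by
    rw [← MonoidHom.range_eq_map, Subgroup.range_subtype]
  rw [hmap]
  intro g hg
  rw [pPrimePCore_eq]
  apply cent_q
  intro x hx
  have hxm : x ∈ ((Cfsg.pPrimePCore 2 G23 : Subgroup G23) : Set G23) := by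
    rw [pPrimePCore_eq]; exact hx
  exact (Subgroup.mem_centralizer_iff.mp hg x hxm)

theorem invol_central (t : G23) (ht : orderOf t = 2) : t ∈ Subgroup.center G23 := by
  rw [mem_center_iff]
  apply (sq_one_iff t).mp
  have := pow_orderOf_eq_one t
  rwa [ht] at this

set_option maxRecDepth 100000 in
theorem sl23G_order : orderOf sl23G = 3 := by
  apply orderOf_eq_prime
  · decide
  · decide

theorem exists_order_three : ∃ Q3 : Subgroup G23, Nat.card Q3 = 3 ∧
    ¬ (Q3 ≤ Cfsg.pPrimeCore 2 G23) := by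
  refine ⟨Subgroup.zpowers sl23G, ?_, ?_⟩
  · rw [Nat.card_zpowers, sl23G_order]
  · rw [pPrimeCore_eq_bot]
    intro h
    have := h (Subgroup.mem_zpowers sl23G)
    rw [Subgroup.mem_bot] at this
    have h3 := sl23G_order
    rw [this, orderOf_one] at h3
    omega

end Cfsg.Agent.Helper1.SL23
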