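import Mathlib
import Cfsg.Agent.Helper1.Grp
import Cfsg.Agent.S0540

set_option autoImplicit false

namespace Cfsg.Agent.Helper1

open scoped Pointwise

universe u

/-- transport of relative subnormality to a subgroup `V` (no inclusions needed) -/
theorem isSubnormal_subgroupOf_subgroupOf {G : Type*} [Group G] (V B J : Subgroup G)
    (h : (B.subgroupOf J).IsSubnormal) :
    ((B.subgroupOf V).subgroupOf (J.subgroupOf V)).IsSubnormal := by
  let φ : ↥(J.subgroupOf V) →* ↥J :=
    { toFun := fun x => ⟨((x : V) : G), Subgroup.mem_subgroupOf.mp x.2⟩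
      map_one' := rfl
      map_mul' := fun _ _ => rfl }
  have h1 : (B.subgroupOf V).subgroupOf (J.subgroupOf V) = (B.subgroupOf J).comap φ := by
    ext x
    rfl
  rw [h1]
  exact h.comap φ

/-- relative subnormality restricts to intermediate subgroups -/
theorem isSubnormal_subgroupOf_of_le {G : Type*} [Group G] {V A J : Subgroup G} (hJV : J ≤ V)
    (h : (A.subgroupOf V).IsSubnormal) : (A.subgroupOf J).IsSubnormal := by
  let φ : ↥(J.subgroupOf V) →* ↥J :=
    { toFun := fun x => ⟨((x : V) : G), Subgroup.mem_subgroupOf.mp x.2⟩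
      map_one' := rfl
      map_mul' := fun _ _ => rfl }
  have hφ : Function.Surjective φ := by
    rintro ⟨y, hy⟩
    exact ⟨⟨⟨y, hJV hy⟩, Subgroup.mem_subgroupOf.mpr hy⟩, rfl⟩
  have h1 : (A.subgroupOf V).subgroupOf (J.subgroupOf V) = (A.subgroupOf J).comap φ := by
    ext x
    rfl
  have h2 := (h.subgroupOf (K := J.subgroupOf V)).map hφ
  rw [h1, Subgroup.map_comap_eq_self_of_surjective hφ] at h2
  exact h2

/-- relative subnormality is invariant under conjugation -/
theorem isSubnormal_subgroupOf_conj {G : Type*} [Group G] (g : G) (A J : Subgroup G)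
    (h : (A.subgroupOf J).IsSubnormal) :
    ((MulAut.conj g • A).subgroupOf (MulAut.conj g • J)).IsSubnormal := by
  let φ : ↥(MulAut.conj g • J) →* ↥J :=
    { toFun := fun x => ⟨g⁻¹ * (x : G) * g, (mem_conj_smul_iff g x J).mp x.2⟩
      map_one' := by ext; simp
      map_mul' := fun x y => by ext; simp [mul_assoc] }
  have h1 : (MulAut.conj g • A).subgroupOf (MulAut.conj g • J) = (A.subgroupOf J).comap φ := by
    ext x
    rw [Subgroup.mem_subgroupOf, mem_conj_smul_iff, Subgroup.mem_comap, Subgroup.mem_subgroupOf]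
    rfl
  rw [h1]
  exact h.comap φ

theorem conj_smul_subgroupOf {G : Type*} [Group G] (V B : Subgroup G) (v : V) :
    MulAut.conj v • B.subgroupOf V = (MulAut.conj (v : G) • B).subgroupOf V := by
  ext x
  rw [mem_conj_smul_iff, Subgroup.mem_subgroupOf, Subgroup.mem_subgroupOf, mem_conj_smul_iff]
  simp

/-- the Wielandt hypothesis is invariant under conjugation -/
theorem wielandt_hyp_conj {G : Type*} [Group G] (A : Subgroup G)
    (h : ∀ g : G, (A.subgroupOf (A ⊔ MulAut.conj g • A)).IsSubnormal) (x : G) :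
    ∀ g : G, ((MulAut.conj x • A).subgroupOf
      (MulAut.conj x • A ⊔ MulAut.conj g • MulAut.conj x • A)).IsSubnormal := by
  intro g
  have h1 : MulAut.conj g • MulAut.conj x • A = MulAut.conj x • MulAut.conj (x⁻¹ * g * x) • A := by
    rw [smul_smul, smul_smul, ← map_mul, ← map_mul]
    congr 2
    group
  rw [h1, ← Subgroup.smul_sup]
  exact isSubnormal_subgroupOf_conj x A _ (h _)

theorem wielandt_aux : ∀ (n : ℕ) (G : Type u) [Group G] [Finite G], Nat.card G ≤ n →
    ∀ A : Subgroup G, (∀ g : G, (A.subgroupOf (A ⊔ MulAut.conj g • A)).IsSubnormal) →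
      A.IsSubnormal := by
  intro n
  induction n with
  | zero =>
    intro G _ _ hcard
    exact absurd hcard (by have := Nat.card_pos (α := G); omega)
  | succ n ih =>
    intro G _ _ hcard A h
    by_contra hA
    -- restriction lemma
    have hres : ∀ V B : Subgroup G, V ≠ ⊤ → B ≤ V →
        (∀ g : G, (B.subgroupOf (B ⊔ MulAut.conj g • B)).IsSubnormal) →
        (B.subgroupOf V).IsSubnormal := by
      intro V B hV hBV hB
      have hcV : Nat.card V ≤ n := by
        have h1 : Nat.card V ≤ Nat.card G := Subgroup.card_le_card_group V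
        have h2 : Nat.card V ≠ Nat.card G := fun h => hV (Subgroup.eq_top_of_card_eq V h)
        omega
      apply ih (↥V) hcV
      intro v
      have hconj : MulAut.conj (v : G) • B ≤ V := by
        intro x hx
        rw [mem_conj_smul_iff] at hx
        have h3 := V.mul_mem (V.mul_mem v.2 (hBV hx)) (V.inv_mem v.2)
        have h4 : (v : G) * ((v : G)⁻¹ * x * v) * (v : G)⁻¹ = x := by group
        rwa [h4] at h3
      rw [conj_smul_subgroupOf, ← Subgroup.subgroupOf_sup hBV hconj]
      exact isSubnormal_subgroupOf_subgroupOf V B _ (hB v)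
    have hAtop : A ≠ ⊤ := by
      rintro rfl
      exact hA Subgroup.IsSubnormal.top
    set U : Set (Subgroup G) := {V | A ≤ V ∧ V ≠ ⊤} with hU
    set S : Subgroup G → Set (Subgroup G) := fun V =>
      {B | (∃ g : G, B = MulAut.conj g • A) ∧ B ≤ V ∧ (B.subgroupOf V).IsSubnormal} with hS
    have h1 : ∀ V ∈ U, A ∈ S V := fun V hV =>
      ⟨⟨1, by simp⟩, hV.1, hres V A hV.2 hV.1 h⟩
    have h2 : ∀ V ∈ U, ∀ W ∈ U, ∀ B ∈ S W, B ≤ V → B ∈ S V := by
      intro V hV W _ B hB hBV
      obtain ⟨⟨g, rfl⟩, _, _⟩ := hB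
      exact ⟨⟨g, rfl⟩, hBV, hres V _ hV.2 hBV (wielandt_hyp_conj A h g)⟩
    have h3 : ∀ V ∈ U, ∀ W ∈ U, ∃ X ∈ U,
        Subgroup.normalizer ((sSup (S V ∩ S W) : Subgroup G) : Set G) ≤ X := by
      intro V hV W hW
      have hmem : A ∈ S V ∩ S W := ⟨h1 V hV, h1 W hW⟩
      refine ⟨Subgroup.normalizer ((sSup (S V ∩ S W) : Subgroup G) : Set G), ?_, le_rfl⟩
      constructor
      · exact (le_sSup hmem).trans Subgroup.le_normalizer
      · intro htop
        have hJn : (sSup (S V ∩ S W) : Subgroup G).Normal := Subgroup.normalizer_eq_top_iff.mp htop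
        have hAJ : A ≤ sSup (S V ∩ S W) := le_sSup hmem
        have hJV : sSup (S V ∩ S W) ≤ V := sSup_le fun B hB => hB.1.2.1
        exact hA (Subgroup.IsSubnormal.trans hAJ
          (isSubnormal_subgroupOf_of_le hJV (h1 V hV).2.2) hJn.isSubnormal)
    have hUne : U.Nonempty := ⟨A, le_rfl, hAtop⟩
    obtain ⟨M, hM, hMax⟩ := Cfsg.Agent.S0540.result A U hUne S
      (fun V B => Iff.rfl) h1 h2 h3
    have hconjM : ∀ g : G, MulAut.conj g • A ≤ M := by
      intro g
      have h4 : A ⊔ MulAut.conj g • A ∈ U := by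
        refine ⟨le_sup_left, fun htop => ?_⟩
        have h5 := h g
        rw [htop] at h5
        exact hA (Subgroup.IsSubnormal.trans le_top h5 Subgroup.IsSubnormal.top)
      exact le_sup_right.trans (hMax (A ⊔ MulAut.conj g • A) h4)
    have hNM : Subgroup.normalClosure (A : Set G) ≤ M := by
      rw [Subgroup.normalClosure, Subgroup.closure_le]
      intro x hx
      rw [Group.mem_conjugatesOfSet_iff] at hx
      obtain ⟨a, ha, hax⟩ := hx
      rw [isConj_iff] at hax
      obtain ⟨c, rfl⟩ := hax
      apply hconjM c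
      rw [mem_conj_smul_iff]
      have : c⁻¹ * (c * a * c⁻¹) * c = a := by group
      rw [this]
      exact ha
    have hNtop : Subgroup.normalClosure (A : Set G) ≠ ⊤ := by
      intro htop
      rw [htop, top_le_iff] at hNM
      exact hM.2 hNM
    exact hA (Subgroup.IsSubnormal.trans Subgroup.le_normalClosure
      (hres _ A hNtop Subgroup.le_normalClosure h) (Subgroup.normalClosure_normal).isSubnormal)

/-- Wielandt's subnormality criterion -/
theorem wielandt_criterion {G : Type u} [Group G] [Finite G] (A : Subgroup G)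
    (h : ∀ g : G, (A.subgroupOf (A ⊔ MulAut.conj g • A)).IsSubnormal) : A.IsSubnormal :=
  wielandt_aux (Nat.card G) G le_rfl A h

/-- every subgroup of a finite nilpotent group is subnormal. -/
theorem isSubnormal_of_nilpotent {G : Type*} [Group G] [Finite G] [Group.IsNilpotent G]
    (H : Subgroup G) : H.IsSubnormal := by
  induction H using WellFoundedGT.induction with
  | ind H ih =>
    by_cases hH : H = ⊤
    · rw [hH]; exact Subgroup.IsSubnormal.top
    · have hlt : H < Subgroup.normalizer (H : Set G) :=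
        Group.normalizerCondition_of_isNilpotent H (lt_top_iff_ne_top.mpr hH)
      exact Subgroup.IsSubnormal.step H (Subgroup.normalizer (H : Set G)) hlt.le (ih _ hlt)
        Subgroup.normal_in_normalizer

end Cfsg.Agent.Helper1
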