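import Mathlib
import Cfsg.Agent.Helper1.CycIdx
import Cfsg.Agent.Helper1.Transfer

set_option autoImplicit false

namespace Cfsg.Agent.Helper1

open scoped commutatorElement

/-- a nontrivial finite Z-group in which all subgroups of order `pq` are commutative has
nontrivial centre -/
theorem center_ne_bot_of_isZGroup {T : Type*} [Group T] [Finite T] [Nontrivial T] [IsZGroup T]
    (hpq : ∀ D : Subgroup T, (∃ p q : ℕ, p.Prime ∧ q.Prime ∧ Nat.card D = p * q) →
      ∀ u ∈ D, ∀ v ∈ D, u * v = v * u) :
    Subgroup.center T ≠ ⊥ := by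
  by_cases hA : commutator T = ⊥
  · rw [_root_.commutator_eq_bot_iff_center_eq_top] at hA
    rw [hA]; exact top_ne_bot
  have hAcyc : IsCyclic (commutator T) := IsZGroup.isCyclic_commutator T
  have hAn : (commutator T).Normal := inferInstance
  have hcop := IsZGroup.coprime_commutator_index T
  obtain ⟨B, hB⟩ := Subgroup.exists_right_complement'_of_coprime hcop
  have hBbot : B ≠ ⊥ := by
    rintro rfl
    have := Subgroup.isComplement'_bot_right.mp hB
    exact (IsZGroup.commutator_lt T).ne this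
  obtain ⟨x, hxB, hxq⟩ := exists_prime_orderOf_mem B hBbot
  have hcardB : (commutator T).index = Nat.card B := hB.symm.index_eq_card
  have hcopAB : Nat.Coprime (Nat.card (commutator T)) (Nat.card B) := by
    rw [← hcardB]; exact hcop
  have hdis : ∀ t, t ∈ commutator T → t ∈ B → t = 1 := fun t h1 h2 =>
    Subgroup.disjoint_def.mp hB.disjoint h1 h2
  have hqB : orderOf x ∣ Nat.card B := Subgroup.orderOf_dvd_natCard B hxB
  have hx1 : x ≠ 1 := by
    rintro rfl
    rw [orderOf_one] at hxq
    exact Nat.not_prime_one hxq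
  have hcopax : ∀ a ∈ commutator T, Nat.Coprime (orderOf a) (orderOf x) := fun a ha =>
    Nat.Coprime.coprime_dvd_left (Subgroup.orderOf_dvd_natCard _ ha)
      (Nat.Coprime.coprime_dvd_right hqB hcopAB)
  have hAcomm : ∀ u ∈ commutator T, ∀ v ∈ commutator T, u * v = v * u := by
    intro u hu v hv
    obtain ⟨g, hg⟩ := hAcyc.exists_generator
    obtain ⟨i, hi⟩ := hg ⟨u, hu⟩
    obtain ⟨j, hj⟩ := hg ⟨v, hv⟩
    have hi' : (g : T) ^ i = u := by
      have := congrArg (Subtype.val) hi
      simpa using this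
    have hj' : (g : T) ^ j = v := by
      have := congrArg (Subtype.val) hj
      simpa using this
    rw [← hi', ← hj', ← zpow_add, ← zpow_add, add_comm]
  have claim1 : ∀ a ∈ commutator T, (orderOf a).Prime → x * a = a * x := by
    intro a ha hr
    have hNn : (Subgroup.zpowers a).Normal := by
      constructor
      intro n hn u
      obtain ⟨k, hk⟩ := conj_pow_of_cyclic (commutator T) hAn hAcyc u
      obtain ⟨i, rfl⟩ := Subgroup.mem_zpowers_iff.mp hn
      rw [← conj_zpow, hk a ha]
      exact Subgroup.zpow_mem _ (Subgroup.pow_mem _ (Subgroup.mem_zpowers a) k) i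
    have hdisj : Disjoint (Subgroup.zpowers a) (Subgroup.zpowers x) := by
      apply Subgroup.disjoint_of_coprime_natCard
      rw [Nat.card_zpowers, Nat.card_zpowers]; exact hcopax a ha
    have hcard : Nat.card ↥(Subgroup.zpowers x ⊔ Subgroup.zpowers a) =
        orderOf a * orderOf x := by
      have h1 := Subgroup.card_mul_index
        ((Subgroup.zpowers a).subgroupOf (Subgroup.zpowers x ⊔ Subgroup.zpowers a))
      have h2 : Nat.card ((Subgroup.zpowers a).subgroupOf
          (Subgroup.zpowers x ⊔ Subgroup.zpowers a)) = orderOf a := by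
        rw [Nat.card_congr (Subgroup.subgroupOfEquivOfLe
          (le_sup_right : Subgroup.zpowers a ≤ Subgroup.zpowers x ⊔ Subgroup.zpowers a)).toEquiv,
          Nat.card_zpowers]
      have h3 : ((Subgroup.zpowers a).subgroupOf
          (Subgroup.zpowers x ⊔ Subgroup.zpowers a)).index = orderOf x := by
        show (Subgroup.zpowers a).relIndex (Subgroup.zpowers x ⊔ Subgroup.zpowers a) = orderOf x
        rw [Subgroup.relIndex_sup_right, ← Subgroup.inf_relIndex_right, hdisj.eq_bot,
          Subgroup.relIndex_bot_left, Nat.card_zpowers]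
      rw [← h1, h2, h3]
    exact hpq _ ⟨orderOf a, orderOf x, hr, hxq, hcard⟩ x
      (Subgroup.mem_sup_left (Subgroup.mem_zpowers x)) a
      (Subgroup.mem_sup_right (Subgroup.mem_zpowers a))
  have claim2 : ∀ n : ℕ, ∀ a ∈ commutator T, orderOf a = n → x * a = a * x := by
    intro n
    induction n using Nat.strong_induction_on with
    | _ n ih =>
      intro a ha hn
      by_cases ha1 : a = 1
      · rw [ha1, mul_one, one_mul]
      have hn1 : n ≠ 1 := by rw [← hn]; exact fun h => ha1 (orderOf_eq_one_iff.mp h)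
      have hn0 : 0 < n := by rw [← hn]; exact orderOf_pos a
      have hr : n.minFac.Prime := Nat.minFac_prime hn1
      have hrd : n.minFac ∣ n := Nat.minFac_dvd n
      have hord : orderOf (a ^ n.minFac) = n / n.minFac := by
        rw [orderOf_pow' a hr.ne_zero, hn, Nat.gcd_eq_right hrd]
      have hlt : n / n.minFac < n := Nat.div_lt_self hn0 hr.one_lt
      have hcomm_r := ih _ hlt (a ^ n.minFac) (Subgroup.pow_mem _ ha _) hord
      have hyA : x * a * x⁻¹ ∈ commutator T := hAn.conj_mem a ha x
      have hcA : a⁻¹ * (x * a * x⁻¹) ∈ commutator T :=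
        Subgroup.mul_mem _ (Subgroup.inv_mem _ ha) hyA
      have hcr : (a⁻¹ * (x * a * x⁻¹)) ^ n.minFac = 1 := by
        have hcm : Commute a⁻¹ (x * a * x⁻¹) := hAcomm _ (Subgroup.inv_mem _ ha) _ hyA
        rw [hcm.mul_pow, conj_pow, inv_pow]
        have : x * a ^ n.minFac * x⁻¹ = a ^ n.minFac := by rw [hcomm_r]; group
        rw [this, inv_mul_cancel]
      have hxc : x * (a⁻¹ * (x * a * x⁻¹)) = (a⁻¹ * (x * a * x⁻¹)) * x := by
        by_cases hc1 : a⁻¹ * (x * a * x⁻¹) = 1
        · rw [hc1, mul_one, one_mul]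
        · haveI : Fact n.minFac.Prime := ⟨hr⟩
          exact claim1 _ hcA (by rw [orderOf_eq_prime hcr hc1]; exact hr)
      have hiter : ∀ i : ℕ, x ^ i * a * (x ^ i)⁻¹ = a * (a⁻¹ * (x * a * x⁻¹)) ^ i := by
        intro i
        induction i with
        | zero => simp
        | succ i ihi =>
          have h1 : x ^ (i + 1) * a * (x ^ (i + 1))⁻¹ = x * (x ^ i * a * (x ^ i)⁻¹) * x⁻¹ := by
            rw [pow_succ']; group
          have h2 : x * (a⁻¹ * (x * a * x⁻¹)) ^ i * x⁻¹ = (a⁻¹ * (x * a * x⁻¹)) ^ i := by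
            have : Commute x ((a⁻¹ * (x * a * x⁻¹)) ^ i) :=
              (show Commute x (a⁻¹ * (x * a * x⁻¹)) from hxc).pow_right i
            rw [this.eq]; group
          have h3 : x * a * x⁻¹ = a * (a⁻¹ * (x * a * x⁻¹)) := by group
          rw [h1, ihi]
          calc x * (a * (a⁻¹ * (x * a * x⁻¹)) ^ i) * x⁻¹
              = (x * a * x⁻¹) * (x * (a⁻¹ * (x * a * x⁻¹)) ^ i * x⁻¹) := by group
            _ = a * (a⁻¹ * (x * a * x⁻¹)) * (a⁻¹ * (x * a * x⁻¹)) ^ i := by rw [h2, ← h3]
            _ = a * (a⁻¹ * (x * a * x⁻¹)) ^ (i + 1) := by rw [pow_succ', mul_assoc]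
      have h4 := hiter (orderOf x)
      rw [pow_orderOf_eq_one, one_mul, inv_one, mul_one] at h4
      have h5 : (a⁻¹ * (x * a * x⁻¹)) ^ orderOf x = 1 := by
        have h5' : a * 1 = a * (a⁻¹ * (x * a * x⁻¹)) ^ orderOf x := by rw [mul_one]; exact h4
        exact (mul_left_cancel h5').symm
      have h6 : orderOf (a⁻¹ * (x * a * x⁻¹)) ∣
          Nat.gcd (orderOf (a⁻¹ * (x * a * x⁻¹))) (orderOf x) :=
        Nat.dvd_gcd dvd_rfl (orderOf_dvd_of_pow_eq_one h5)
      rw [Nat.Coprime.gcd_eq_one (hcopax _ hcA), Nat.dvd_one, orderOf_eq_one_iff] at h6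
      have h7 : x * a * x⁻¹ = a := by
        have : x * a * x⁻¹ = a * (a⁻¹ * (x * a * x⁻¹)) := by group
        rw [this, h6, mul_one]
      calc x * a = (x * a * x⁻¹) * x := by group
        _ = a * x := by rw [h7]
  intro hcen
  have hxc : x ∈ Subgroup.center T := by
    rw [Subgroup.mem_center_iff]
    intro t
    obtain ⟨⟨⟨a, ha⟩, ⟨b, hb⟩⟩, hab, -⟩ := hB.existsUnique t
    have hab' : a * b = t := hab
    have h1 : x * a = a * x := claim2 _ a ha rfl
    have h2 : x * b = b * x := by
      have h3 : ⁅x, b⁆ ∈ commutator T := by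
        rw [commutator_def]
        exact Subgroup.commutator_mem_commutator (Subgroup.mem_top x) (Subgroup.mem_top b)
      rw [commutatorElement_def] at h3
      have h4 : x * b * x⁻¹ * b⁻¹ ∈ B :=
        B.mul_mem (B.mul_mem (B.mul_mem hxB hb) (B.inv_mem hxB)) (B.inv_mem hb)
      have h5 := hdis _ h3 h4
      calc x * b = (x * b * x⁻¹ * b⁻¹) * b * x := by group
        _ = b * x := by rw [h5, one_mul]
    rw [← hab']
    calc a * b * x = a * (b * x) := mul_assoc _ _ _
      _ = a * (x * b) := by rw [h2]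
      _ = (a * x) * b := (mul_assoc _ _ _).symm
      _ = (x * a) * b := by rw [h1]
      _ = x * (a * b) := mul_assoc _ _ _
  rw [hcen, Subgroup.mem_bot] at hxc
  exact hx1 hxc

end Cfsg.Agent.Helper1
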